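import Mathlib

set_option autoImplicit false

namespace Cfsg.Agent.H23.ClsSn

open Equiv Equiv.Perm

def M (n : ℕ) : Set (Multiset ℕ) := {m | m.sum ≤ n ∧ ∀ a ∈ m, 2 ≤ a}

def ct {n : ℕ} : ConjClasses (Perm (Fin n)) → Multiset ℕ :=
  Quotient.lift cycleType fun _ _ h => isConj_iff_cycleType_eq.1 h

theorem ct_inj {n : ℕ} : Function.Injective (ct (n := n)) := by
  rintro ⟨a⟩ ⟨b⟩ h
  exact Quotient.sound (isConj_iff_cycleType_eq.2 h)

theorem range_ct {n : ℕ} : Set.range (ct (n := n)) = M n := by
  ext m
  have := exists_with_cycleType_iff (α := Fin n) (m := m)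
  rw [Fintype.card_fin] at this
  refine Iff.trans ⟨?_, ?_⟩ this
  · rintro ⟨⟨a⟩, h⟩; exact ⟨a, h⟩
  · rintro ⟨a, h⟩; exact ⟨ConjClasses.mk a, h⟩

theorem card_M (n : ℕ) : Nat.card (ConjClasses (Perm (Fin n))) = (M n).ncard := by
  rw [← range_ct, Set.ncard_range_of_injective ct_inj]

theorem fin_M (n : ℕ) : (M n).Finite := range_ct ▸ Set.finite_range _

theorem M_small {n : ℕ} (hn : n ≤ 1) : (M n).ncard ≤ 1 := by
  refine (Set.ncard_le_one (fin_M n)).2 ?_
  have : ∀ m ∈ M n, m = 0 := fun m hm => Multiset.eq_zero_of_forall_notMem fun a ha => by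
    have := hm.2 a ha
    have := Multiset.single_le_sum (fun _ _ => Nat.zero_le _) a ha
    have := hm.1
    omega
  intro a ha b hb
  rw [this a ha, this b hb]

open scoped _root_.Classical in
noncomputable def pick (m : Multiset ℕ) : ℕ := if h : ∃ a, a ∈ m then h.choose else 0

theorem pick_mem {m : Multiset ℕ} (h : m.sum ≠ 0) : pick m ∈ m := by
  have : ∃ a, a ∈ m := Multiset.exists_mem_of_ne_zero (by rintro rfl; simp at h)
  rw [pick, dif_pos this]
  exact this.choose_spec

theorem M_rec (n : ℕ) : (M (n + 2)).ncard ≤ (M (n + 1)).ncard + (M n).ncard := by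
  have h1 : M (n + 2) ⊆ M (n + 1) ∪ {m ∈ M (n + 2) | m.sum = n + 2} := fun m hm => by
    by_cases h : m.sum = n + 2
    · exact Or.inr ⟨hm, h⟩
    · exact Or.inl ⟨by have := hm.1; omega, hm.2⟩
  refine (Set.ncard_le_ncard h1 ((fin_M _).union ((fin_M _).sep _))).trans
    ((Set.ncard_union_le _ _).trans (Nat.add_le_add_left ?_ _))
  have hs : ∀ m : Multiset ℕ, m.sum = n + 2 → pick m + (m.erase (pick m)).sum = n + 2 := fun m h => by
    rw [Multiset.sum_erase (pick_mem (by omega)), h]
  refine Set.ncard_le_ncard_of_injOn (fun m => m.erase (pick m)) ?_ ?_ (fin_M n)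
  · rintro m ⟨h1, h2⟩
    refine ⟨?_, fun a ha => h1.2 a (Multiset.mem_of_mem_erase ha)⟩
    have := hs m h2
    have := h1.2 _ (pick_mem (by omega))
    omega
  · rintro m ⟨-, h2⟩ m' ⟨-, h2'⟩ e
    have e' : m.erase (pick m) = m'.erase (pick m') := e
    have h3 := hs m h2
    have h4 := hs m' h2'
    rw [← Multiset.cons_erase (pick_mem (m := m) (by omega)),
      ← Multiset.cons_erase (pick_mem (m := m') (by omega)), e']
    rw [e'] at h3
    congr 1
    omega

theorem M_le (n : ℕ) : (M (n + 5)).ncard ≤ 2 ^ (n + 3) ∧ (M (n + 4)).ncard ≤ 2 ^ (n + 3) := by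
  induction n with
  | zero =>
    have := M_small (n := 0) (by omega)
    have := M_small (n := 1) (by omega)
    have := M_rec 0
    have := M_rec 1
    have := M_rec 2
    have := M_rec 3
    simp only [zero_add, Nat.reduceAdd] at *
    omega
  | succ n ih =>
    have := M_rec (n + 4)
    rw [show n + 1 + 3 = n + 3 + 1 from rfl, pow_succ]
    simp only [add_assoc, Nat.reduceAdd] at *
    omega

theorem isConj_of_sign {n : ℕ} {a b : alternatingGroup (Fin n)} {g : Perm (Fin n)}
    (hg : sign g = 1) (h : g * a * g⁻¹ = b) : ConjClasses.mk a = ConjClasses.mk b :=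
  ConjClasses.mk_eq_mk_iff_isConj.2 (isConj_iff.2 ⟨⟨g, mem_alternatingGroup.2 hg⟩, Subtype.ext h⟩)

theorem split {n : ℕ} {a b : alternatingGroup (Fin n)} (h : a.1.cycleType = b.1.cycleType)
    (hne : ConjClasses.mk a ≠ ConjClasses.mk b) :
    (∀ k ∈ a.1.cycleType, Odd k) ∧ n ≤ a.1.cycleType.sum + 1 := by
  have hc := isConj_iff_cycleType_eq.2 h
  refine ⟨fun k hk => ?_, ?_⟩
  · by_contra hk2
    obtain ⟨g, hg⟩ := isConj_iff.1 hc
    rw [cycleType_def, Multiset.mem_map] at hk
    obtain ⟨c, hc1, rfl⟩ := hk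
    rw [Finset.mem_val] at hc1
    have h1 := (mem_cycleFactorsFinset_iff.1 hc1).1.sign
    simp only [Function.comp_apply, Nat.not_odd_iff_even] at hk2
    rw [hk2.neg_one_pow] at h1
    rcases Int.units_eq_one_or (sign g) with e | e
    · exact hne (isConj_of_sign e hg)
    · refine hne (isConj_of_sign (g := g * c) (by rw [map_mul, e, h1]; simp) ?_)
      rw [← hg, mul_assoc g c, (self_mem_cycle_factors_commute hc1).eq]
      group
  · by_contra hn
    refine hne (ConjClasses.mk_eq_mk_iff_isConj.2 (alternatingGroup.isConj_of hc ?_))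
    rw [sum_cycleType] at hn
    rw [Fintype.card_fin]
    omega

theorem lt_main {n : ℕ} (hn : 5 ≤ n) :
    Nat.card (ConjClasses (alternatingGroup (Fin n))) < (M n).ncard := by
  classical
  let A := alternatingGroup (Fin n)
  have hrep : ∀ c : ConjClasses A, ∃ a : A, ConjClasses.mk a = c := ConjClasses.mk_surjective
  choose r hr using hrep
  let t : ConjClasses A → Multiset ℕ := fun c => (r c).1.cycleType
  let s : Multiset ℕ → ConjClasses A := Function.invFun t
  have hs : ∀ c, t (s (t c)) = t c := fun c => Function.invFun_eq ⟨c, rfl⟩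
  let f : Multiset ℕ → Multiset ℕ := fun m => (pick m - 1) ::ₘ m.erase (pick m)
  let F : ConjClasses A → Multiset ℕ := fun c => if c = s (t c) then t c else f (t c)
  have hM : ∀ c, t c ∈ M n := fun c => by
    rw [← range_ct]; exact ⟨ConjClasses.mk (r c).1, rfl⟩
  have hev : ∀ c, Even ((t c).sum + (t c).card) := fun c => by
    have h1 := mem_alternatingGroup.1 (r c).2
    rw [sign_of_cycleType] at h1
    exact (neg_one_pow_eq_one_iff_even (by decide)).1 h1
  have hsp : ∀ c, c ≠ s (t c) → (∀ k ∈ t c, Odd k) ∧ n ≤ (t c).sum + 1 := fun c h =>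
    split (b := r (s (t c))) (hs c).symm (by rwa [hr, hr])
  have hp : ∀ c, c ≠ s (t c) → pick (t c) ∈ t c := fun c h =>
    pick_mem (by have := (hsp c h).2; omega)
  have hp3 : ∀ c, c ≠ s (t c) → 3 ≤ pick (t c) ∧ Odd (pick (t c)) := fun c h => by
    have h1 := (hsp c h).1 _ (hp c h)
    have := (hM c).2 _ (hp c h)
    exact ⟨by obtain ⟨k, hk⟩ := h1; omega, h1⟩
  have hsum : ∀ c, c ≠ s (t c) → (f (t c)).sum + 1 = (t c).sum := fun c h => by
    have := Multiset.sum_erase (hp c h)
    have := hp3 c h
    simp only [f, Multiset.sum_cons]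
    omega
  have hcard : ∀ c, c ≠ s (t c) → (f (t c)).card = (t c).card := fun c h => by
    simp only [f, Multiset.card_cons]
    exact Multiset.card_erase_add_one (hp c h)
  have hodd : ∀ c, c ≠ s (t c) → ¬ Even ((f (t c)).sum + (f (t c)).card) := fun c h => by
    have := hsum c h
    have := hev c
    rw [hcard c h]
    simp only [Nat.even_iff] at *
    omega
  have hinj : Function.Injective F := by
    intro c d e
    have hF1 : ∀ c, c = s (t c) → F c = t c := fun c h => if_pos h
    have hF2 : ∀ c, c ≠ s (t c) → F c = f (t c) := fun c h => if_neg h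
    by_cases h1 : c = s (t c) <;> by_cases h2 : d = s (t d)
    · rw [hF1 c h1, hF1 d h2] at e
      rw [h1, h2, e]
    · rw [hF1 c h1, hF2 d h2] at e
      exact absurd (e ▸ hev c) (hodd d h2)
    · rw [hF2 c h1, hF1 d h2] at e
      exact absurd (e ▸ hev d) (hodd c h1)
    rw [hF2 c h1, hF2 d h2] at e
    have e1 : pick (t c) = pick (t d) := by
      have : pick (t c) - 1 ∈ f (t d) := e ▸ Multiset.mem_cons_self _ _
      have h3 := hp3 c h1
      have h4 := hp3 d h2
      rcases Multiset.mem_cons.1 this with h | h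
      · omega
      · have := (hsp d h2).1 _ (Multiset.mem_of_mem_erase h)
        simp only [Nat.odd_iff] at *
        omega
    have e2 : t c = t d := by
      simp only [f, e1, Multiset.cons_inj_right] at e
      rw [← Multiset.cons_erase (hp c h1), ← Multiset.cons_erase (hp d h2), e1, e]
    obtain ⟨g, hg⟩ := isConj_iff.1 (isConj_iff_cycleType_eq.2 (hs c))
    obtain ⟨k, hk⟩ := isConj_iff.1 (isConj_iff_cycleType_eq.2 (hs d))
    have hg1 := (Int.units_eq_one_or (sign g)).resolve_left fun h =>
      h1 (by have := isConj_of_sign h hg; rw [hr, hr] at this; exact this.symm)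
    have hk1 := (Int.units_eq_one_or (sign k)).resolve_left fun h =>
      h2 (by have := isConj_of_sign h hk; rw [hr, hr] at this; exact this.symm)
    rw [← hr c, ← hr d]
    refine isConj_of_sign (g := k * g⁻¹) (by rw [map_mul, map_inv, hg1, hk1]; simp) ?_
    rw [← hg, ← hk, e2]
    group
  have h2M : {2} ∈ M n := ⟨by simp; omega, by simp⟩
  have hrg : Set.range F ⊆ M n \ {{2}} := by
    rintro _ ⟨c, rfl⟩
    by_cases h1 : c = s (t c)
    · rw [show F c = t c from if_pos h1]
      refine ⟨hM c, fun h => ?_⟩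
      have := hev c
      rw [Set.mem_singleton_iff.1 h] at this
      simp at this
      exact absurd this (by decide)
    · rw [show F c = f (t c) from if_neg h1]
      have h3 := hsum c h1
      refine ⟨⟨by have := (hM c).1; omega, fun a ha => ?_⟩, fun h => ?_⟩
      · rcases Multiset.mem_cons.1 ha with h | h
        · have := hp3 c h1; omega
        · exact (hM c).2 a (Multiset.mem_of_mem_erase h)
      · rw [Set.mem_singleton_iff.1 h] at h3
        have := (hsp c h1).2
        simp at h3
        omega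
  rw [← Set.ncard_range_of_injective hinj]
  exact (Set.ncard_le_ncard hrg ((fin_M n).subset Set.diff_subset)).trans_lt
    (Set.ncard_diff_singleton_lt_of_mem h2M (fin_M n))

end Cfsg.Agent.H23.ClsSn
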