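import Mathlib
import Cfsg.Agent.H23.Cox

/-! Coxeter systems of rank two. -/

set_option autoImplicit false
set_option linter.unusedSectionVars false

namespace Cfsg.Agent.H23
open Cfsg.Agent.BN Finset

variable {W : Type*} [Group W] {ι : Type*} {s : ι → W}

theorem eq_alt_of_prefix {l : List ι} {i j : ι} {n : ℕ} (h : l <+: alt i j n) :
    l = alt i j l.length :=
  (List.prefix_of_prefix_length_le h (alt_prefix i j (by simpa using h.length_le))
    (by simp)).eq_of_length (by simp)

theorem prod_alt {M : Type*} [Monoid M] (f : ι → M) (i j : ι) (n : ℕ) :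
    ((alt i j (2 * n)).map f).prod = (f i * f j) ^ n ∧
      ((alt i j (2 * n + 1)).map f).prod = (f i * f j) ^ n * f i := by
  induction n with
  | zero => simp [alt]
  | succ n ih =>
    have e : ∀ k, ((alt i j (k + 2)).map f).prod = f i * f j * ((alt i j k).map f).prod :=
      fun k => by simp [alt, mul_assoc]
    exact ⟨by rw [mul_add, e, ih.1, pow_succ'],
      by rw [show 2 * (n + 1) + 1 = 2 * n + 1 + 2 by ring, e, ih.2, pow_succ', mul_assoc _ (_ ^ n)]⟩

namespace Cx
variable (h : Cx s)
include h

theorem order_comm (i j : ι) : orderOf (s j * s i) = orderOf (s i * s j) := by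
  rw [← orderOf_inv, mul_inv_rev, h.s_inv, h.s_inv]

theorem wp_alt_eq {i j : ι} {n : ℕ} :
    wp s (alt i j n) = wp s (alt j i n) ↔ orderOf (s i * s j) ∣ n := by
  rw [orderOf_dvd_iff_pow_eq_one, ← wp_alt_mul_inv s h.inv.sq, mul_inv_eq_one]

theorem red_alt (k : ℕ) : ∀ i j, k ≤ orderOf (s i * s j) → Red s (alt i j k) := by
  induction k with
  | zero => exact fun _ _ _ => len_one s
  | succ k ih =>
    intro i j hk
    have h1 := ih j i (by rw [h.order_comm]; omega)
    rcases h.len_sl i (wp s (alt j i k)) with e | e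
    · exact e.trans (congrArg (· + 1) h1)
    obtain ⟨l1, a, l2, e1, e2⟩ := h.ex _ i h1 (by omega)
    have p1 : l1 ++ [a] <+: alt j i k := ⟨l2, by simp [e1]⟩
    have e3 := eq_alt_of_prefix ((List.prefix_append _ _).trans p1)
    have e4 : wp s (alt i j (l1.length + 1)) = wp s (alt j i (l1.length + 1)) := by
      rw [alt, ← e3, wp_cons, e2, ← List.length_singleton (a := a), ← List.length_append,
        ← eq_alt_of_prefix p1]
      simp
    have := Nat.le_of_dvd (Nat.succ_pos _) (h.wp_alt_eq.mp e4)
    have := p1.length_le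
    simp at this
    omega

theorem le_of_red_alt [Finite W] {i j : ι} {n : ℕ} (hr : Red s (alt i j n)) :
    n ≤ orderOf (s i * s j) := by
  by_contra hn
  obtain ⟨t, ht⟩ := alt_prefix i j (not_le.mp hn)
  obtain ⟨m, hm⟩ := Nat.exists_eq_succ_of_ne_zero (orderOf_pos (s i * s j)).ne'
  have h1 := (h.inv.red_append (ht ▸ hr)).1
  rw [Red, length_alt, alt, wp_cons, ← h.wp_alt_eq.mpr dvd_rfl, hm, alt, wp_cons,
    h.inv.cancel_left] at h1
  have := len_wp_le s (alt j i m)
  simp at this
  omega

/-- the lift of `W` to a monoid along reduced words -/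
noncomputable def R {M : Type*} [Monoid M] (f : ι → M) (w : W) : M :=
  ((h.inv.exists_red w).choose.map f).prod

variable {a b : ι} (hab : a ≠ b) (h2 : ∀ i, i = a ∨ i = b)
include hab h2

theorem alt_of_red {l : List ι} (hl : Red s l) : l = alt a b l.length ∨ l = alt b a l.length := by
  induction l with
  | nil => exact .inl rfl
  | cons c l ih =>
    have key : ∀ i j, c = i → l = alt i j l.length → l = alt j i l.length := fun i j e1 e2 => by
      rcases l with _ | ⟨d, l⟩
      · rfl
      · obtain rfl : d = c := e1 ▸ (List.cons.inj e2).1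
        rw [Red, wp_cons, wp_cons, h.inv.cancel_left] at hl
        have := len_wp_le s l
        simp at hl
        omega
    rcases h2 c with e | e
    · exact .inl (congrArg₂ _ e ((ih (h.inv.red_tail hl)).elim (key _ _ e) id))
    · exact .inr (congrArg₂ _ e ((ih (h.inv.red_tail hl)).elim id (key _ _ e)))

variable [Fintype W]

theorem sum_dih {A : Type*} [AddCommMonoid A] (g : W → A) : ∑ w, g w =
    ∑ k ∈ range (orderOf (s a * s b)), (g (wp s (alt b a k)) + g (s a * wp s (alt b a k))) := by
  have l1 : ∀ k < orderOf (s a * s b), len s (wp s (alt b a k)) = k := fun k hk =>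
    (h.red_alt k b a (by rw [h.order_comm]; omega)).trans (length_alt _ _ _)
  have l2 : ∀ k < orderOf (s a * s b), len s (wp s (alt a b (k + 1))) = k + 1 := fun k hk =>
    (h.red_alt _ a b hk).trans (length_alt _ _ _)
  have l3 : ∀ k < orderOf (s a * s b), ∀ k' < orderOf (s a * s b),
      wp s (alt a b (k + 1)) ≠ wp s (alt b a k') := fun k hk k' hk' e => by
    obtain rfl : k + 1 = k' := by rw [← l2 k hk, e, l1 k' hk']
    exact (Nat.le_of_dvd k.succ_pos (h.wp_alt_eq.mp e)).not_gt hk'
  symm
  rw [← sum_congr rfl fun k _ => (Fintype.sum_bool fun β => g (wp s (bif β then alt b a k else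
    alt a b (k + 1)))).trans (by simp [alt]), ← sum_product']
  refine sum_nbij (fun x => wp s (bif x.2 then alt b a x.1 else alt a b (x.1 + 1)))
    (fun _ _ => mem_univ _) ?_ (fun w _ => ?_) fun _ _ => rfl
  · rintro ⟨k, β⟩ hk ⟨k', β'⟩ hk' e
    simp only [coe_product, coe_range, Set.mem_prod, Set.mem_Iio] at hk hk'
    cases β <;> cases β' <;> simp only [cond_true, cond_false] at e
    · rw [Nat.succ_injective ((l2 k hk.1).symm.trans (e ▸ l2 k' hk'.1))]
    · exact (l3 _ hk.1 _ hk'.1 e).elim
    · exact (l3 _ hk'.1 _ hk.1 e.symm).elim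
    · rw [(l1 k hk.1).symm.trans (e ▸ l1 k' hk'.1)]
  · obtain ⟨l, hl, rfl⟩ := h.inv.exists_red w
    have key : ∀ n ≤ orderOf (s a * s b), ∃ x ∈ range (orderOf (s a * s b)) ×ˢ (univ : Finset Bool),
        wp s (bif x.2 then alt b a x.1 else alt a b (x.1 + 1)) = wp s (alt a b n) := by
      rintro (_ | n) hn
      · exact ⟨(0, true), by simpa using orderOf_pos _, rfl⟩
      · exact ⟨(n, false), by simpa using hn, rfl⟩
    rcases h.alt_of_red hab h2 hl with e | e
    · rw [e] at hl ⊢
      exact key _ (h.le_of_red_alt hl)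
    · rw [e] at hl ⊢
      rcases ((h.le_of_red_alt hl).trans (h.order_comm a b).le).lt_or_eq with e | e
      · exact ⟨(l.length, true), by simpa using e, rfl⟩
      · rw [← h.wp_alt_eq.mpr (e ▸ dvd_rfl)]
        exact key _ e.le

theorem card_dih : Nat.card W = 2 * orderOf (s a * s b) := by
  simpa [mul_comm] using h.sum_dih hab h2 fun _ => (1 : ℕ)

variable {M : Type*} [Monoid M] {f : ι → M}
  (hf : ((alt a b (orderOf (s a * s b))).map f).prod = ((alt b a (orderOf (s a * s b))).map f).prod)
include hf

theorem R_wp {l : List ι} (hl : Red s l) : h.R f (wp s l) = (l.map f).prod := by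
  obtain ⟨hk, e⟩ := (h.inv.exists_red (wp s l)).choose_spec
  rw [R]
  generalize (h.inv.exists_red (wp s l)).choose = k at hk e
  have e1 : k.length = l.length := hk.symm.trans (e ▸ hl)
  have key : ∀ n, Red s (alt a b n) → wp s (alt a b n) = wp s (alt b a n) →
      ((alt a b n).map f).prod = ((alt b a n).map f).prod := fun n h1 h3 => by
    rcases n.eq_zero_or_pos with rfl | h0
    · rfl
    · rwa [(h.le_of_red_alt h1).antisymm (Nat.le_of_dvd h0 (h.wp_alt_eq.mp h3))]
  rcases h.alt_of_red hab h2 hl with e2 | e2 <;> rcases h.alt_of_red hab h2 hk with e3 | e3 <;>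
    rw [e1] at e3 <;> rw [e2, e3] at e <;> rw [e2] at hl <;> rw [e3] at hk <;> rw [e2, e3]
  exacts [(key _ hl e.symm).symm, key _ hk e]

theorem R_one : h.R f 1 = 1 := h.R_wp hab h2 hf (l := []) (len_one s)

theorem R_up {i : ι} {w : W} (hw : len s w < len s (s i * w)) :
    h.R f (s i * w) = f i * h.R f w := by
  obtain ⟨l, hl, rfl⟩ := h.inv.exists_red w
  rw [← wp_cons, h.R_wp hab h2 hf hl, h.R_wp hab h2 hf, List.map_cons, List.prod_cons]
  have := h.len_sl i (wp s l)
  rw [Red] at hl ⊢
  rw [wp_cons, List.length_cons]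
  omega

end Cx
end Cfsg.Agent.H23
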