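import Mathlib
import Cfsg.Agent.H23.Cox
import Cfsg.Agent.BN.Basic
import Cfsg.Agent.Block.Omega

/-! Hecke algebras: the Casimir identity, and the Hecke algebra of a finite (B,N)-pair. -/

set_option autoImplicit false
set_option linter.unusedSectionVars false

namespace Cfsg.Agent.H23
open Cfsg.Agent.BN Cfsg.Agent.Block Cfsg.Agent.Char Finset MonoidAlgebra
open scoped _root_.Classical

section
variable {W : Type*} [Group W] {ι : Type*} {s : ι → W} {K : Type*} [CommRing K] {q : ι → K}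
  {V V' V'' : Type*} [AddCommGroup V] [Module K V] [AddCommGroup V'] [Module K V']
  [AddCommGroup V''] [Module K V'']

/-- vectors `T w` permuted by operators `L i` like the standard basis of the Hecke algebra -/
structure HV (s : ι → W) (q : ι → K) (L : ι → V →ₗ[K] V) (T : W → V) : Prop where
  up : ∀ i w, len s w < len s (s i * w) → L i (T w) = T (s i * w)
  down : ∀ i w, len s w < len s (s i * w) →
    L i (T (s i * w)) = (q i - 1) • T (s i * w) + q i • T w

theorem HV.casimir [Fintype W] (h : Cx s) {L : ι → V →ₗ[K] V} {T : W → V} {L' : ι → V' →ₗ[K] V'}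
    {T' : W → V'} (h1 : HV s q L T) (h2 : HV s q L' T') {c : W → K}
    (hc : ∀ i w, len s w < len s (s i * w) → c w = q i * c (s i * w)) (β : V →ₗ[K] V' →ₗ[K] V'')
    (i : ι) : ∑ w, c w • β (L i (T w)) (T' w) = ∑ w, c w • β (T w) (L' i (T' w)) := by
  have key : ∀ w, len s w < len s (s i * w) →
      c w • β (L i (T w)) (T' w) - c w • β (T w) (L' i (T' w)) + (c (s i * w) •
        β (L i (T (s i * w))) (T' (s i * w)) - c (s i * w) • β (T (s i * w)) (L' i (T' (s i * w))))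
        = 0 := fun w hw => by
    rw [h1.up i w hw, h2.up i w hw, h1.down i w hw, h2.down i w hw, hc i w hw]
    simp only [map_add, map_smul, LinearMap.add_apply, LinearMap.smul_apply]
    module
  rw [← sub_eq_zero, ← sum_sub_distrib]
  refine sum_involution (fun w _ => s i * w) (fun w _ => ?_) (fun w _ _ e => ?_)
    (fun _ _ => mem_univ _) fun w _ => h.inv.cancel_left i w
  · rcases h.len_sl i w with e | e
    · exact key w (by omega)
    · have := key (s i * w) (by rw [h.inv.cancel_left]; omega)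
      rwa [h.inv.cancel_left, add_comm] at this
  · have := h.len_sl i w
    rw [e] at this
    omega

end

theorem exists_nat_of_idem {G : Type*} [Group G] [Fintype G] {x : MonoidAlgebra ℂ G} {c : ℂ}
    (h : x * x = c • x) : (c = 0 → x.coeff 1 = 0) ∧
      (c = 1 → ∃ n : ℕ, Nat.card G * x.coeff 1 = n ∧ (n = 0 → x = 0)) := by
  have := finiteDimensional_monoidAlgebra G
  have h1 := lin_character (Representation.leftRegular ℂ G) x
  rw [character_leftRegular, lin_apply, sum_eq_single 1 (fun g _ hg => by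
    rw [regChar_of_ne hg, mul_zero]) (by simp), regChar_one, mul_comm] at h1
  have h2 := congrArg (Representation.leftRegular ℂ G).asAlgebraHom h
  rw [map_mul, map_smul] at h2
  refine ⟨fun e => ?_, fun e => ?_⟩
  · rw [e, zero_smul, ← sq] at h2
    rw [(LinearMap.isNilpotent_trace_of_isNilpotent ⟨2, h2⟩).eq_zero] at h1
    exact (mul_eq_zero.mp h1).resolve_left card_ne_zero
  · rw [e, one_smul] at h2
    refine ⟨_, h1.trans (LinearMap.IsIdempotentElem.isProj_range _ h2).trace, fun e => ?_⟩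
    have h3 := LinearMap.congr_fun (LinearMap.range_eq_bot.mp (Submodule.finrank_eq_zero.mp e)) 1
    rwa [Representation.leftRegular, Representation.asAlgebraHom_ofMulAction_smul_eq_mul, mul_one]
      at h3

/-- Bruhat decompositions; `d g` is the cell of `g` -/
structure Br (G : Type*) [Group G] (W : Type*) [Group W] (ι : Type*) where
  s : ι → W
  cx : Cx s
  B : Subgroup G
  d : G → W
  surj : Function.Surjective d
  d_eq : ∀ {g g'}, d g = d g' ↔ ∃ b ∈ B, ∃ b' ∈ B, g' = b * g * b'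
  d_one : d 1 = 1
  d_inv : ∀ g, d g⁻¹ = (d g)⁻¹
  up : ∀ {i x y}, d x = s i → len s (d y) < len s (s i * d y) → d (x * y) = s i * d y
  sq : ∀ {i x y}, d x = s i → d y = s i → d (x * y) = 1 ∨ d (x * y) = s i
  thick : ∀ i, ∃ x y, d x = s i ∧ d y = s i ∧ d (x * y) = s i

namespace Br
variable {G : Type*} [Group G] [Fintype G] {W : Type*} [Group W] {ι : Type*} (Γ : Br G W ι)

theorem d_eq_one {g : G} : Γ.d g = 1 ↔ g ∈ Γ.B := by
  rw [← Γ.d_one, eq_comm, Γ.d_eq]
  exact ⟨fun ⟨b, h, b', h', e⟩ => by rw [e, mul_one]; exact mul_mem h h',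
    fun h => ⟨g, h, 1, one_mem _, by simp⟩⟩

variable {Γ} in
theorem d_B_mul {b : G} (hb : b ∈ Γ.B) (g : G) : Γ.d (b * g) = Γ.d g :=
  (Γ.d_eq.mpr ⟨b, hb, 1, one_mem _, by simp⟩).symm

variable {Γ} in
theorem d_mul_B {b : G} (hb : b ∈ Γ.B) (g : G) : Γ.d (g * b) = Γ.d g :=
  (Γ.d_eq.mpr ⟨1, one_mem _, b, hb, by simp⟩).symm

theorem s_ne_one (i : ι) : Γ.s i ≠ 1 := fun e => by
  have := Γ.cx.len_s i
  rw [e, len_one] at this
  omega

/-- the standard basis of the Hecke algebra -/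
noncomputable def T (w : W) : MonoidAlgebra ℂ G :=
  ofFun fun g => if Γ.d g = w then (Nat.card Γ.B : ℂ)⁻¹ else 0

/-- the index -/
noncomputable def Q (w : W) : ℚ := #{g | Γ.d g = w} / Nat.card Γ.B

theorem coeff_T (w : W) (g : G) :
    (Γ.T w).coeff g = if Γ.d g = w then (Nat.card Γ.B : ℂ)⁻¹ else 0 := coeff_ofFun _ _

theorem coeff_T_mul (v w : W) (g : G) : (Γ.T v * Γ.T w).coeff g = (Nat.card Γ.B : ℂ)⁻¹ *
    (Nat.card Γ.B : ℂ)⁻¹ * #{h | Γ.d h = v ∧ Γ.d (h⁻¹ * g) = w} := by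
  simp only [coeff_mul_left, coeff_T, ite_zero_mul_ite_zero, ← sum_filter, sum_const, nsmul_eq_mul]
  rw [mul_comm]

theorem card_coset (x : G) {p : G → Prop} [DecidablePred p] (h : ∀ g, p g ↔ x⁻¹ * g ∈ Γ.B) :
    #{g | p g} = Nat.card Γ.B := by
  rw [← Fintype.card_subtype, ← Nat.card_eq_fintype_card]
  exact Nat.card_congr ((Equiv.mulLeft x⁻¹).subtypeEquiv h)

theorem Q_pos (w : W) : 0 < Γ.Q w :=
  let ⟨g, h⟩ := Γ.surj w
  div_pos (Nat.cast_pos.mpr (card_pos.mpr ⟨g, by simpa⟩)) (Nat.cast_pos.mpr Nat.card_pos)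

theorem Q_ne (w : W) : (Γ.Q w : ℂ) ≠ 0 := Rat.cast_ne_zero.mpr (Γ.Q_pos w).ne'

theorem card_cell (w : W) : (#{g | Γ.d g = w} : ℂ) = Γ.Q w * Nat.card Γ.B := by
  rw [Q, Rat.cast_div, Rat.cast_natCast, Rat.cast_natCast, div_mul_cancel₀ _ card_ne_zero]

theorem Q_one : Γ.Q 1 = 1 := by
  rw [Q, Γ.card_coset 1 fun g => by rw [d_eq_one, inv_one, one_mul]]
  exact div_self (Nat.cast_ne_zero.mpr Nat.card_pos.ne')

theorem mul_of {v w u : W} (h1 : ∀ x y, Γ.d x = v → Γ.d y = w → Γ.d (x * y) = u)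
    (h2 : ∀ x x' y, Γ.d x = v → Γ.d x' = v → Γ.d y = w → Γ.d (x⁻¹ * x' * y) = w → x⁻¹ * x' ∈ Γ.B) :
    Γ.T v * Γ.T w = Γ.T u := ga_ext fun g => by
  rw [coeff_T_mul, coeff_T]
  split_ifs with hg
  · obtain ⟨x, hx⟩ := Γ.surj v
    obtain ⟨y, hy⟩ := Γ.surj w
    obtain ⟨b, hb, b', hb', rfl⟩ := Γ.d_eq.mp ((h1 x y hx hy).trans hg.symm)
    have hx' := (d_B_mul hb x).trans hx
    have hy' := (d_mul_B hb' y).trans hy
    rw [Γ.card_coset (b * x) fun h => ⟨fun e => h2 _ _ _ hx' e.1 e.2 (by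
      rw [← hy']; congr 1; group), fun e => ⟨by rw [← hx', ← d_mul_B e (b * x), mul_inv_cancel_left], by
        rw [← hy', ← d_B_mul e]; congr 1; group⟩⟩, inv_mul_cancel_right₀ card_ne_zero]
  · rw [filter_eq_empty_iff.mpr fun h _ e => hg (by
      rw [← h1 _ _ e.1 e.2, mul_inv_cancel_left]), card_empty, Nat.cast_zero, mul_zero]

theorem one_mul_T (w : W) : Γ.T 1 * Γ.T w = Γ.T w :=
  Γ.mul_of (fun x y hx hy => (d_B_mul (Γ.d_eq_one.mp hx) y).trans hy)
    fun _ _ _ hx hx' _ _ => mul_mem (inv_mem (Γ.d_eq_one.mp hx)) (Γ.d_eq_one.mp hx')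

theorem T_up {i : ι} {w : W} (h : len Γ.s w < len Γ.s (Γ.s i * w)) :
    Γ.T (Γ.s i) * Γ.T w = Γ.T (Γ.s i * w) := by
  refine Γ.mul_of (fun x y hx hy => hy ▸ Γ.up hx (hy.symm ▸ h)) fun x x' y hx hx' hy e => ?_
  refine (Γ.sq (by rw [Γ.d_inv, hx, Γ.cx.s_inv]) hx').elim Γ.d_eq_one.mp fun h1 => ?_
  rw [Γ.up h1 (hy.symm ▸ h), hy, mul_eq_right] at e
  exact (Γ.s_ne_one i e).elim

theorem card_sq {i : ι} {g : G} (hg : Γ.d g = Γ.s i) :
    #{h | Γ.d h = Γ.s i ∧ Γ.d (h⁻¹ * g) = Γ.s i} + Nat.card Γ.B = #{h | Γ.d h = Γ.s i} := by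
  rw [← Γ.card_coset g (p := fun h => Γ.d h = Γ.s i ∧ ¬ Γ.d (h⁻¹ * g) = Γ.s i) fun h => ⟨fun e => by
    simpa using inv_mem (Γ.d_eq_one.mp ((Γ.sq (by rw [Γ.d_inv, e.1, Γ.cx.s_inv]) hg).resolve_right
      e.2)), fun e => ⟨by rw [← hg, ← d_mul_B e g, mul_inv_cancel_left], by
        rw [Γ.d_eq_one.mpr (by simpa using inv_mem e)]; exact (Γ.s_ne_one i).symm⟩⟩,
    ← filter_filter, ← filter_filter, card_filter_add_card_filter_not]

theorem T_sq (i : ι) : Γ.T (Γ.s i) * Γ.T (Γ.s i) =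
    ((Γ.Q (Γ.s i) : ℂ) - 1) • Γ.T (Γ.s i) + (Γ.Q (Γ.s i) : ℂ) • Γ.T 1 := ga_ext fun g => by
  have h0 := card_ne_zero (G := Γ.B)
  rw [coeff_T_mul, coeff_add, coeff_smul, coeff_smul, Finsupp.add_apply, Finsupp.smul_apply,
    Finsupp.smul_apply, coeff_T, coeff_T, smul_eq_mul, smul_eq_mul]
  by_cases h1 : Γ.d g = Γ.s i
  · have := congrArg (Nat.cast : ℕ → ℂ) (Γ.card_sq h1)
    rw [Nat.cast_add, card_cell] at this
    rw [if_pos h1, if_neg (h1 ▸ Γ.s_ne_one i), eq_sub_of_add_eq this]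
    field_simp
    ring
  by_cases h2 : Γ.d g = 1
  · rw [if_neg h1, if_pos h2, filter_congr fun h _ => and_iff_left_of_imp fun e => by
      rw [d_mul_B (Γ.d_eq_one.mp h2), Γ.d_inv, e, Γ.cx.s_inv], card_cell]
    field_simp
    ring
  · rw [if_neg h1, if_neg h2, filter_eq_empty_iff.mpr fun h _ e => by
      simpa [h1, h2] using Γ.sq e.1 e.2]
    simp

theorem Q_ne_one (i : ι) : Γ.Q (Γ.s i) ≠ 1 := fun e => by
  obtain ⟨x, y, hx, hy, h⟩ := Γ.thick i
  have := congrArg (Nat.cast : ℕ → ℂ) (Γ.card_sq h)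
  rw [Nat.cast_add, card_cell, e, Rat.cast_one, one_mul, add_eq_right, Nat.cast_eq_zero,
    card_eq_zero, filter_eq_empty_iff] at this
  exact this (mem_univ x) ⟨hx, by simpa⟩

theorem hv : HV Γ.s (fun i => (Γ.Q (Γ.s i) : ℂ)) (fun i => LinearMap.mulLeft ℂ (Γ.T (Γ.s i))) Γ.T :=
  ⟨fun _ _ h => Γ.T_up h, fun i w h => by
    rw [LinearMap.mulLeft_apply, ← Γ.T_up h, ← mul_assoc, T_sq, add_mul, smul_mul_assoc,
      smul_mul_assoc, one_mul_T]⟩

theorem lin_one_T (w : W) : lin 1 (Γ.T w) = Γ.Q w := by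
  simp only [lin_apply, coeff_T, Pi.one_apply, mul_one, ← sum_filter, sum_const, nsmul_eq_mul,
    card_cell, mul_inv_cancel_right₀ (card_ne_zero (G := Γ.B))]

theorem Q_up {i : ι} {w : W} (h : len Γ.s w < len Γ.s (Γ.s i * w)) :
    Γ.Q (Γ.s i * w) = Γ.Q (Γ.s i) * Γ.Q w := by
  have := congrArg (lin 1) (Γ.T_up h)
  rw [lin_mul, lin_one_T] at this
  simp only [Pi.one_apply, mul_one, ← sum_mul_sum] at this
  have h1 := fun w => Γ.lin_one_T w
  simp only [lin_apply, Pi.one_apply, mul_one] at h1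
  rw [h1, h1] at this
  exact_mod_cast this.symm

theorem c_up (i : ι) (w : W) (h : len Γ.s w < len Γ.s (Γ.s i * w)) :
    (Γ.Q w : ℂ)⁻¹ = Γ.Q (Γ.s i) * (Γ.Q (Γ.s i * w) : ℂ)⁻¹ := by
  rw [Γ.Q_up h, Rat.cast_mul, mul_inv, mul_inv_cancel_left₀ (Γ.Q_ne _)]

end Br

/-- the Bruhat decomposition of a (B,N)-pair -/
noncomputable def brOf {G : Type*} [Group G] (P : BNPair G) : Br G (Weyl P) P.S where
  s := sw P
  cx := ⟨invGen, exch, sw_injective⟩
  B := P.B
  d g := (exists_mem_cell (P := P) g).choose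
  surj w := let ⟨n, hn, e⟩ := cls_surj w
    ⟨n, eq_of_mem_cell (exists_mem_cell n).choose_spec (e ▸ self_mem_cell hn)⟩
  d_eq {g g'} := ⟨fun e => exists_of_mem_cell (exists_mem_cell g).choose_spec
      (e ▸ (exists_mem_cell g').choose_spec), fun ⟨_, h, _, h', e⟩ => eq_of_mem_cell (e ▸
        cell_mul_mem (mul_mem_cell h (exists_mem_cell g).choose_spec) h')
          (exists_mem_cell g').choose_spec⟩
  d_one := eq_of_mem_cell (exists_mem_cell 1).choose_spec (mem_cell_one.mpr (one_mem _))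
  d_inv g := eq_of_mem_cell (exists_mem_cell _).choose_spec
    (inv_mem_cell (exists_mem_cell g).choose_spec)
  up {_ x y} h1 h2 := eq_of_mem_cell (exists_mem_cell _).choose_spec (cell_simple_mul_of_le h2.le
    (h1 ▸ (exists_mem_cell x).choose_spec) (exists_mem_cell y).choose_spec)
  sq {i x y} h1 h2 := (cell_simple_mul (h1 ▸ (exists_mem_cell x).choose_spec)
    (h2 ▸ (exists_mem_cell y).choose_spec)).imp
      (fun h => (eq_of_mem_cell (exists_mem_cell _).choose_spec h).trans (sw_sq i))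
      (eq_of_mem_cell (exists_mem_cell _).choose_spec)
  thick i := let ⟨b, hb, h⟩ := exists_cell_of_ge (s := i) (by simp [sw_sq]) (sw_mem_cell i)
    ⟨i * b, i, eq_of_mem_cell (exists_mem_cell _).choose_spec (cell_mul_mem (sw_mem_cell i) hb),
      eq_of_mem_cell (exists_mem_cell _).choose_spec (sw_mem_cell i),
      eq_of_mem_cell (exists_mem_cell _).choose_spec h⟩

end Cfsg.Agent.H23
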