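import Mathlib
import Cfsg.Agent.H23.Dih
import Cfsg.Agent.H23.Hk
import Cfsg.Agent.Char.Central

/-! The theorem of Feit and Higman for (B,N)-pairs of rank two. -/

set_option autoImplicit false
set_option linter.unusedSectionVars false

namespace Cfsg.Agent.H23
open Cfsg.Agent.BN Finset
open scoped _root_.Classical Matrix

theorem pow_eq_rec {A : Type*} [Ring A] [Algebra ℂ A] {C : A} {y n : ℂ}
    (hC : C * C = y • C - n • 1) {P : ℕ → ℂ} (h0 : P 0 = 0) (h1 : P 1 = 1)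
    (h : ∀ k, P (k + 2) = y * P (k + 1) - n * P k) (k : ℕ) :
    C ^ k = P k • C + (P (k + 1) - y * P k) • 1 := by
  induction k with
  | zero => simp [h0, h1]
  | succ k ih =>
    rw [pow_succ, ih, add_mul, smul_mul_assoc, smul_mul_assoc, hC, one_mul, h]
    module

/-- Chebyshev values -/
noncomputable def chU (ζ : ℂ) (k : ℕ) : ℂ := (ζ ^ k - ζ⁻¹ ^ k) / (ζ - ζ⁻¹)

section
variable {ζ : ℂ} (h0 : ζ ≠ 0) (h1 : ζ - ζ⁻¹ ≠ 0)
include h0 h1

theorem chU_rec (k : ℕ) : chU ζ (k + 2) = (ζ + ζ⁻¹) * chU ζ (k + 1) - chU ζ k := by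
  have := mul_inv_cancel₀ h0
  simp only [chU]
  generalize ζ⁻¹ = η at *
  field_simp
  linear_combination (η ^ k - ζ ^ k) * this

theorem sum_chU (n : ℕ) :
    (ζ - ζ⁻¹) ^ 2 * ∑ i ∈ range n, chU ζ (i + 1) ^ 2 = chU ζ (2 * n + 1) - (2 * n + 1) := by
  have := mul_inv_cancel₀ h0
  induction n with
  | zero => simp [chU, h1]
  | succ n ih =>
    have e : ζ ^ (n + 1) * ζ⁻¹ ^ (n + 1) = 1 := by rw [← mul_pow, this, one_pow]
    rw [sum_range_succ, mul_add, ih]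
    simp only [chU]
    generalize ζ⁻¹ = η at *
    push_cast
    field_simp
    linear_combination (2 * η - 2 * ζ) * e + (η ^ (2 * n + 1) - ζ ^ (2 * n + 1)) * this

theorem sum_terms {m : ℕ} (hm : ζ ^ m = 1) {t : ℕ → ℂ} {κ κ' : ℂ}
    (e1 : ∀ i, t (2 * i + 1) = κ * chU ζ (i + 1) ^ 2) (e2 : ∀ i, t (2 * i) = κ' * chU ζ i ^ 2) :
    (ζ - ζ⁻¹) ^ 2 * ∑ k ∈ range m, t k = -m * (κ + κ') := by
  have key : ∀ n, ∑ k ∈ range (2 * n + 1), t k = (κ + κ') * ∑ i ∈ range n, chU ζ (i + 1) ^ 2 := by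
    intro n
    induction n with
    | zero => simpa [chU] using e2 0
    | succ n ih =>
      rw [show 2 * (n + 1) + 1 = 2 * n + 1 + 1 + 1 by ring, sum_range_succ, sum_range_succ, ih, e1,
        show 2 * n + 1 + 1 = 2 * (n + 1) by ring, e2, sum_range_succ]
      ring
  rcases Nat.even_or_odd' m with ⟨n, rfl | rfl⟩
  · have e : ζ ^ n = ζ⁻¹ ^ n := by
      rw [inv_pow]; exact eq_inv_of_mul_eq_one_left (by rw [← pow_add, ← two_mul, hm])
    have e3 := key n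
    rw [sum_range_succ, e2, chU, e, sub_self, zero_div] at e3
    have e4 := sum_chU h0 h1 n
    rw [chU, pow_succ ζ, pow_succ ζ⁻¹, inv_pow, hm, inv_one, one_mul, one_mul, div_self h1] at e4
    push_cast
    linear_combination (ζ - ζ⁻¹) ^ 2 * e3 + (κ + κ') * e4
  · have e4 := sum_chU h0 h1 n
    rw [chU, inv_pow, hm, inv_one, sub_self, zero_div] at e4
    rw [key]
    push_cast
    linear_combination (κ + κ') * e4

end

theorem braid_of {ι A : Type*} [Ring A] [Algebra ℂ A] {f : ι → A} {a b : ι} {y n σ : ℂ}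
    (h1 : f a * f b * (f a * f b) = y • (f a * f b) - n • 1)
    (h2 : f b * f a * (f b * f a) = y • (f b * f a) - n • 1) {P : ℕ → ℂ} (p0 : P 0 = 0)
    (p1 : P 1 = 1) (p2 : ∀ k, P (k + 2) = y * P (k + 1) - n * P k) {m : ℕ}
    (he : ∀ k, m = 2 * k → P k = 0) (ho : ∀ k, m = 2 * k + 1 → σ * P k + P (k + 1) = 0 ∧
      f a * f b * f a - f b * f a * f b = (y + σ) • (f a - f b)) :
    ((alt a b m).map f).prod = ((alt b a m).map f).prod := by
  rcases Nat.even_or_odd' m with ⟨k, rfl | rfl⟩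
  · rw [(prod_alt f a b k).1, (prod_alt f b a k).1, pow_eq_rec h1 p0 p1 p2, pow_eq_rec h2 p0 p1 p2,
      he k rfl, zero_smul, zero_smul]
  · rw [(prod_alt f a b k).2, (prod_alt f b a k).2, pow_eq_rec h1 p0 p1 p2, pow_eq_rec h2 p0 p1 p2,
      add_mul, add_mul, smul_mul_assoc, smul_mul_assoc, smul_mul_assoc, smul_mul_assoc, one_mul,
      one_mul, eq_add_of_sub_eq (ho k rfl).2, eq_neg_of_add_eq_zero_right (ho k rfl).1]
    module

theorem niven_c {ζ : ℂ} {m : ℕ} (hm : 0 < m) (h : ζ ^ m = 1) {x : ℚ} (hx : ζ + ζ⁻¹ = x) :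
    ζ ^ 4 = 1 ∨ ζ ^ 6 = 1 := by
  have h0 : ζ ≠ 0 := fun e => by simp [e, hm.ne'] at h
  have hi : ∀ z : ℂ, z ^ m = 1 → IsIntegral ℤ z := fun z hz =>
    IsIntegral.of_pow hm (hz ▸ isIntegral_one)
  obtain ⟨n, rfl⟩ := Char.exists_int_of_isIntegral_ratCast
    (hx ▸ (hi ζ h).add (hi _ (by rw [inv_pow, h, inv_one])))
  have h1 := Complex.norm_eq_one_of_pow_eq_one h hm.ne'
  have h2 := norm_add_le ζ ζ⁻¹
  rw [hx, norm_inv, h1, Rat.cast_intCast, Complex.norm_intCast] at h2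
  have h3 : |n| ≤ 2 := by exact_mod_cast h2.trans (by norm_num : _ ≤ (2 : ℝ))
  have h4 : ζ ^ 2 + 1 = n * ζ := by
    rw [← Rat.cast_intCast (α := ℂ), ← hx]; field_simp
  obtain ⟨h5, h6⟩ := abs_le.mp h3
  interval_cases n <;> push_cast at h4
  · left
    rw [eq_neg_of_add_eq_zero_left (pow_eq_zero_iff two_ne_zero |>.mp
      (show (ζ + 1) ^ 2 = 0 by linear_combination h4))]
    norm_num
  · right; linear_combination (ζ - 1) * (ζ ^ 3 + 1) * h4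
  · left; linear_combination (ζ ^ 2 - 1) * h4
  · right; linear_combination (ζ + 1) * (ζ ^ 3 - 1) * h4
  · left
    rw [sub_eq_zero.mp (pow_eq_zero_iff two_ne_zero |>.mp
      (show (ζ - 1) ^ 2 = 0 by linear_combination h4))]
    norm_num

section
variable {W : Type*} [Group W] [Fintype W] {ι : Type*} {s : ι → W} {q : ι → ℂ}
  {V : Type*} [AddCommGroup V] [Module ℂ V] {n : Type*} [Fintype n] [DecidableEq n]

/-- the Casimir map attached to a matrix representation -/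
noncomputable def casZ (c : W → ℂ) (T : W → V) (T' : W → n → ℂ) : (n → ℂ) →ₗ[ℂ] V :=
  ∑ w, c w • (dotProductBilin ℂ ℂ (T' w)).smulRight (T w)

theorem casZ_apply (c : W → ℂ) (T : W → V) (T' : W → n → ℂ) (u : n → ℂ) :
    casZ c T T' u = ∑ w, (c w * (T' w ⬝ᵥ u)) • T w := by
  simp [casZ, mul_smul]

theorem HV.casZ_comm (h : Cx s) {L : ι → V →ₗ[ℂ] V} {T : W → V} {f : ι → Matrix n n ℂ}
    {T' : W → n → ℂ} (h1 : HV s q L T) (h2 : HV s q (fun i => (f i)ᵀ.mulVecLin) T') {c : W → ℂ}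
    (hc : ∀ i w, len s w < len s (s i * w) → c w = q i * c (s i * w)) (i : ι) (u : n → ℂ) :
    L i (casZ c T T' u) = casZ c T T' (f i *ᵥ u) := by
  have := LinearMap.congr_fun (h1.casimir h h2 hc
    (LinearMap.smulRightₗ ∘ₗ dotProductBilin ℂ ℂ).flip i) u
  simpa [casZ_apply, mul_smul, Matrix.mulVec_transpose, Matrix.dotProduct_mulVec] using this

theorem hv_R (h : Cx s) {a b : ι} (hab : a ≠ b) (h2 : ∀ i, i = a ∨ i = b) {f : ι → Matrix n n ℂ}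
    (hf : ((alt a b (orderOf (s a * s b))).map f).prod =
      ((alt b a (orderOf (s a * s b))).map f).prod)
    (hq : ∀ i, f i * f i = (q i - 1) • f i + q i • 1) (v : n → ℂ) :
    HV s q (fun i => (f i).mulVecLin) fun w => h.R f w *ᵥ v :=
  ⟨fun i w hw => by rw [h.R_up hab h2 hf hw, Matrix.mulVecLin_apply, Matrix.mulVec_mulVec],
    fun i w hw => by
      rw [h.R_up hab h2 hf hw, Matrix.mulVecLin_apply, Matrix.mulVec_mulVec, ← mul_assoc, hq,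
        add_mul, smul_mul_assoc, smul_mul_assoc, one_mul, Matrix.add_mulVec, Matrix.smul_mulVec,
        Matrix.smul_mulVec]⟩

end

namespace Br
variable {G : Type*} [Group G] [Fintype G] {W : Type*} [Group W] [Fintype W] {ι : Type*}
  (Γ : Br G W ι)

theorem Q_wp {l : List ι} (hl : Red Γ.s l) :
    Γ.Q (wp Γ.s l) = (l.map fun i => Γ.Q (Γ.s i)).prod := by
  induction l with
  | nil => exact Γ.Q_one
  | cons i l ih =>
    have := Γ.cx.inv.red_tail hl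
    rw [wp_cons, Γ.Q_up, ih this, List.map_cons, List.prod_cons]
    rw [← wp_cons, this, hl, List.length_cons]
    omega

theorem exists_rat {n : Type*} [Fintype n] [DecidableEq n] {f : ι → Matrix n n ℂ} {R : W → Matrix n n ℂ}
    {T' : W → n → ℂ} (h1 : R 1 = 1)
    (h2 : ∀ i w, len Γ.s w < len Γ.s (Γ.s i * w) → R (Γ.s i * w) = f i * R w)
    (h3 : HV Γ.s (fun i => (Γ.Q (Γ.s i) : ℂ)) (fun i => (f i)ᵀ.mulVecLin) T') {v : n → ℂ} {p : ℂ}
    (h4 : casZ (fun w => (Γ.Q w : ℂ)⁻¹) (fun w => R w *ᵥ v) T' v = p • v) {x : ℚ}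
    (hx : T' 1 ⬝ᵥ v = x) (h0 : x ≠ 0) : ∃ κ : ℚ, p = κ := by
  set Z := casZ (fun w => (Γ.Q w : ℂ)⁻¹) Γ.T T'
  have hZ : ∀ w u, Γ.T w * Z u = Z (R w *ᵥ u) := fun w => by
    induction w using Γ.cx.inv.induction_len_left with
    | h1 => simp only [h1, Matrix.one_mulVec, Z, casZ_apply, mul_sum, mul_smul_comm, one_mul_T,
        implies_true]
    | hs i w hw ih =>
      intro u
      rw [← Γ.T_up (by omega), h2 i w (by omega), mul_assoc, ih, ← Matrix.mulVec_mulVec]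
      exact Γ.hv.casZ_comm Γ.cx h3 Γ.c_up i _
  have e1 : Z v * Z v = p • Z v := by
    rw [← map_smul, ← h4, casZ_apply (T := fun w => R w *ᵥ v), map_sum]
    simp only [map_smul, ← hZ, ← smul_mul_assoc, ← sum_mul]
    rw [← casZ_apply]
  have e2 : (Z v).coeff 1 = x * (Nat.card Γ.B : ℂ)⁻¹ := by
    rw [casZ_apply, Block.coeff_sum_apply, sum_eq_single 1 (fun w _ hw => by
      simp [coeff_T, Γ.d_one, hw.symm]) (by simp)]
    simp [coeff_T, Γ.d_one, Γ.Q_one, hx]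
  have e3 : (Z v).coeff 1 ≠ 0 := e2 ▸ mul_ne_zero (Rat.cast_ne_zero.mpr h0)
    (inv_ne_zero Char.card_ne_zero)
  have hp : p ≠ 0 := fun e => e3 ((exists_nat_of_idem e1).1 e)
  obtain ⟨N, e4, e5⟩ := (exists_nat_of_idem (x := p⁻¹ • Z v) (c := 1) (by
    rw [smul_mul_smul_comm, e1, one_smul, smul_smul, inv_mul_cancel_right₀ hp])).2 rfl
  have hN : (N : ℂ) ≠ 0 := Nat.cast_ne_zero.mpr fun e => e3 (by
    rw [(smul_eq_zero.mp (e5 e)).resolve_left (inv_ne_zero hp)]; rfl)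
  refine ⟨Nat.card G * x / Nat.card Γ.B / N, ?_⟩
  rw [MonoidAlgebra.coeff_smul, Finsupp.smul_apply, e2, smul_eq_mul] at e4
  push_cast
  rw [eq_div_iff hN, ← e4]
  field_simp

variable {a b : ι} (hab : a ≠ b) (h2 : ∀ i, i = a ∨ i = b)
include hab h2

theorem fh_key {ζ r : ℂ} (hm : ζ ^ orderOf (Γ.s a * Γ.s b) = 1) (h1 : ζ - ζ⁻¹ ≠ 0) {σ τ : ℚ}
    (hσ : Γ.Q (Γ.s a) = σ) (hτ : Γ.Q (Γ.s b) = τ) (hr : r * r = σ * τ)
    (ho : Odd (orderOf (Γ.s a * Γ.s b)) → r = σ ∧ τ = σ) : ∃ κ : ℚ,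
      κ * (4 * σ * τ - (r * (ζ + ζ⁻¹)) ^ 2) =
        (σ * τ + 1 - r * (ζ + ζ⁻¹)) * (σ + τ + r * (ζ + ζ⁻¹)) := by
  have h0 : ζ ≠ 0 := fun e => by simp [e] at h1
  have s0 : (σ : ℂ) ≠ 0 := hσ ▸ Γ.Q_ne _
  have t0 : (τ : ℂ) ≠ 0 := hτ ▸ Γ.Q_ne _
  have s1' : σ + 1 ≠ 0 := hσ ▸ (add_pos (Γ.Q_pos _) one_pos).ne'
  have s1 : (σ : ℂ) + 1 ≠ 0 := by exact_mod_cast s1'
  have t1 : (τ : ℂ) + 1 ≠ 0 := by exact_mod_cast hτ ▸ (add_pos (Γ.Q_pos _) one_pos).ne'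
  have r0 : r ≠ 0 := fun e => mul_ne_zero s0 t0 (by rw [← hr, e, mul_zero])
  obtain ⟨y, hy⟩ : ∃ y, y = r * (ζ + ζ⁻¹) := ⟨_, rfl⟩
  let P : ℕ → ℂ := fun k => r ^ k * chU ζ k / r
  have p0 : P 0 = 0 := by simp [P, chU]
  have p1 : P 1 = 1 := by simp [P, chU, h1, r0]
  have p2 : ∀ k, P (k + 2) = y * P (k + 1) - σ * τ * P k := fun k => by
    simp only [P, chU_rec h0 h1, hy, ← hr]; ring
  have he : ∀ k, orderOf (Γ.s a * Γ.s b) = 2 * k → P k = 0 := fun k e => by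
    have : ζ ^ k = ζ⁻¹ ^ k := by
      rw [inv_pow]; exact eq_inv_of_mul_eq_one_left (by rw [← pow_add, ← two_mul, ← e, hm])
    simp only [P, chU]
    rw [← this, sub_self, zero_div, mul_zero, zero_div]
  have hd : ∀ k, orderOf (Γ.s a * Γ.s b) = 2 * k + 1 → σ * P k + P (k + 1) = 0 := fun k e => by
    have e1 : ζ ^ k = ζ⁻¹ ^ (k + 1) := by
      rw [inv_pow]; exact eq_inv_of_mul_eq_one_left (by rw [← pow_add, ← hm, e]; congr 1; ring)
    have e2 : ζ ^ (k + 1) = ζ⁻¹ ^ k := by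
      rw [inv_pow]; exact eq_inv_of_mul_eq_one_left (by rw [← pow_add, ← hm, e]; congr 1; ring)
    simp only [P, chU]
    rw [← e1, ← e2, ← (ho ⟨k, e⟩).1]
    field_simp
    ring
  obtain ⟨f, fa, fb⟩ : ∃ f : ι → Matrix (Fin 2) (Fin 2) ℂ, f a = !![-1, 1; 0, (σ : ℂ)] ∧
      f b = !![(τ : ℂ), 0; σ + τ + y, -1] :=
    ⟨fun i => if i = a then _ else _, if_pos rfl, if_neg hab.symm⟩
  have c1 : f a * f b * (f a * f b) = y • (f a * f b) - (σ * τ : ℂ) • 1 := by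
    rw [fa, fb]; ext i j; fin_cases i <;> fin_cases j <;> simp <;> ring
  have c2 : f b * f a * (f b * f a) = y • (f b * f a) - (σ * τ : ℂ) • 1 := by
    rw [fa, fb]; ext i j; fin_cases i <;> fin_cases j <;> simp <;> ring
  have c3 : τ = σ → f a * f b * f a - f b * f a * f b = (y + σ) • (f a - f b) := fun e => by
    rw [fa, fb, e]; ext i j; fin_cases i <;> fin_cases j <;> simp <;> ring
  have hq : ∀ i, f i * f i = ((Γ.Q (Γ.s i) : ℂ) - 1) • f i + (Γ.Q (Γ.s i) : ℂ) • 1 := fun i => by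
    rcases h2 i with rfl | rfl
    · rw [fa, hσ]; ext i j; fin_cases i <;> fin_cases j <;> simp <;> ring
    · rw [fb, hτ]; ext i j; fin_cases i <;> fin_cases j <;> simp <;> ring
  have c1' := congrArg Matrix.transpose c1
  have c2' := congrArg Matrix.transpose c2
  simp only [Matrix.transpose_mul, Matrix.transpose_sub, Matrix.transpose_smul,
    Matrix.transpose_one] at c1' c2'
  have hf := braid_of c1 c2 p0 p1 p2 he fun k e => ⟨hd k e, c3 (ho ⟨k, e⟩).2⟩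
  have hf' := braid_of (f := fun i => (f i)ᵀ) c2' c1' p0 p1 p2 he fun k e => ⟨hd k e, by
    simpa [mul_assoc] using congrArg Matrix.transpose (c3 (ho ⟨k, e⟩).2)⟩
  have hv' := hv_R Γ.cx hab h2 hf' (q := fun i => (Γ.Q (Γ.s i) : ℂ))
    (fun i => by simpa using congrArg Matrix.transpose (hq i)) ![0, 1]
  set Φ := casZ (fun w => (Γ.Q w : ℂ)⁻¹) (fun w => Γ.cx.R f w *ᵥ ![1, σ + 1])
    fun w => Γ.cx.R (fun i => (f i)ᵀ) w *ᵥ ![0, 1] with hΦ
  have hc : ∀ i u, f i *ᵥ Φ u = Φ (f i *ᵥ u) :=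
    (hv_R Γ.cx hab h2 hf hq _).casZ_comm Γ.cx hv' Γ.c_up
  have hl : ∀ u : Fin 2 → ℂ, Φ u = u 0 • Φ ![1, 0] + u 1 • Φ ![0, 1] := fun u => by
    rw [← map_smul, ← map_smul, ← map_add]; congr 1; ext i; fin_cases i <;> simp
  have a1 := congrFun ((hc a ![1, 0]).trans (hl _)) 1
  have a2 := congrFun ((hc b ![0, 1]).trans (hl _)) 0
  have a3 := congrFun ((hc a ![0, 1]).trans (hl _)) 0
  simp [fa, fb, Matrix.mulVec, dotProduct, Fin.sum_univ_two] at a1 a2 a3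
  have b1 : Φ ![1, 0] 1 = 0 := (mul_eq_zero.mp (by linear_combination a1)).resolve_left s1
  have b2 : Φ ![0, 1] 0 = 0 := (mul_eq_zero.mp (by linear_combination a2)).resolve_left t1
  obtain ⟨κ, hκ⟩ := Γ.exists_rat (Γ.cx.R_one hab h2 hf) (fun _ _ => Γ.cx.R_up hab h2 hf) hv'
    (v := ![1, σ + 1]) (p := Φ ![1, 0] 0) (x := σ + 1) ((hl _).trans (by
      ext i; fin_cases i <;> simp [b1, b2] <;> linear_combination (σ + 1) * a3 + (σ + 1) ^ 2 * b2))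
    (by simp [Γ.cx.R_one hab h2 hf']) s1'
  let t : ℕ → ℂ := fun k => ((((alt b a k).map fun i => Γ.Q (Γ.s i)).prod : ℚ) : ℂ)⁻¹ *
    ((((alt b a k).map fun i => (f i)ᵀ).prod *ᵥ ![0, 1]) ⬝ᵥ ![1, 0]) *
      (![(σ : ℂ) + 1, -1] ⬝ᵥ (((alt b a k).map f).prod *ᵥ ![1, σ + 1]))
  have e1 : ![(σ : ℂ) + 1, -1] ⬝ᵥ Φ ![1, 0] =
      (1 + (σ : ℂ)⁻¹) * ∑ k ∈ range (orderOf (Γ.s a * Γ.s b)), t k := by
    rw [hΦ, casZ_apply, dotProduct_sum, Γ.cx.sum_dih hab h2, mul_sum]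
    refine sum_congr rfl fun k hk => ?_
    have r1 := Γ.cx.red_alt k b a (by rw [Γ.cx.order_comm]; exact (mem_range.mp hk).le)
    have r2 : len Γ.s (wp Γ.s (alt b a k)) < len Γ.s (Γ.s a * wp Γ.s (alt b a k)) := by
      rw [r1, ← wp_cons, ← alt, Γ.cx.red_alt _ a b (mem_range.mp hk)]; simp
    rw [Γ.cx.R_up hab h2 hf r2, Γ.cx.R_up hab h2 hf' r2, Γ.Q_up r2, Γ.cx.R_wp hab h2 hf r1,
      Γ.cx.R_wp hab h2 hf' r1, Γ.Q_wp r1, ← Matrix.mulVec_mulVec, ← Matrix.mulVec_mulVec, hσ, fa]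
    simp only [t]
    generalize ((alt b a k).map f).prod *ᵥ _ = x1
    generalize ((alt b a k).map fun i => (f i)ᵀ).prod *ᵥ _ = x2
    simp [Matrix.mulVec, dotProduct, Fin.sum_univ_two]
    ring
  have hP' : ∀ i, ((σ * τ : ℂ) ^ i)⁻¹ * (σ * τ) * P i ^ 2 = chU ζ i ^ 2 := fun i => by
    simp only [P, ← hr]; field_simp; ring
  have hP : ∀ i, ((σ * τ : ℂ) ^ i)⁻¹ * P (i + 1) ^ 2 = chU ζ (i + 1) ^ 2 := fun i => by
    simp only [P, ← hr]; field_simp; ring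
  have e2 := sum_terms h0 h1 hm (t := t)
    (κ := (τ : ℂ)⁻¹ * ((σ * τ + 1 - y) * (σ + τ + y)))
    (κ' := σ * (τ : ℂ)⁻¹ * ((σ * τ + 1 - y) * (σ + τ + y))) (fun i => by
      simp only [t, (prod_alt _ b a i).2, pow_eq_rec c2 p0 p1 p2 i, pow_eq_rec c1' p0 p1 p2 i, hσ,
        hτ]
      rw [← hP i]
      simp [fa, fb, Matrix.mulVec, dotProduct, Fin.sum_univ_two, Matrix.mul_apply, Matrix.one_apply]
      field_simp
      ring) (fun i => by
      simp only [t, (prod_alt _ b a i).1, pow_eq_rec c2 p0 p1 p2 i, pow_eq_rec c1' p0 p1 p2 i, hσ,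
        hτ]
      rw [← hP' i]
      simp [fa, fb, Matrix.mulVec, dotProduct, Fin.sum_univ_two, Matrix.mul_apply, Matrix.one_apply]
      field_simp
      ring)
  have hm0 : (orderOf (Γ.s a * Γ.s b) : ℂ) ≠ 0 := Nat.cast_ne_zero.mpr (orderOf_pos _).ne'
  refine ⟨κ / orderOf (Γ.s a * Γ.s b) / (σ + 1), ?_⟩
  simp [dotProduct, Fin.sum_univ_two, b1, hκ] at e1
  have e3 : 4 * σ * τ - y ^ 2 = -(σ * τ) * (ζ - ζ⁻¹) ^ 2 := by
    rw [hy, mul_pow, pow_two r, hr]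
    linear_combination (-4 * σ * τ : ℂ) * mul_inv_cancel₀ h0
  rw [← hy, e3]
  push_cast
  generalize ∑ k ∈ range _, t k = S at e1 e2
  generalize ζ - ζ⁻¹ = δ at e2
  field_simp at e1 e2 ⊢
  linear_combination (-τ * δ ^ 2 : ℂ) * e1 - e2

theorem feit_higman : orderOf (Γ.s a * Γ.s b) ∈ ({2, 3, 4, 6, 8} : Set ℕ) := by
  have hk := @fh_key G _ _ W _ _ ι Γ a b hab h2
  have hm := orderOf_pos (Γ.s a * Γ.s b)
  have m1 : orderOf (Γ.s a * Γ.s b) ≠ 1 := fun e => hab (Γ.cx.inj (by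
    rw [← Γ.cx.s_inv b, ← mul_eq_one_iff_eq_inv, ← orderOf_eq_one_iff, e]))
  have hb := (Γ.Q_wp (Γ.cx.red_alt _ a b le_rfl)).symm.trans ((congrArg Γ.Q
    (Γ.cx.wp_alt_eq.mpr dvd_rfl)).trans (Γ.Q_wp (Γ.cx.red_alt _ b a (Γ.cx.order_comm a b).ge)))
  have s0 := Γ.Q_pos (Γ.s a)
  have t0 := Γ.Q_pos (Γ.s b)
  have s1 := sub_ne_zero.mpr (Γ.Q_ne_one a)
  have t1 := sub_ne_zero.mpr (Γ.Q_ne_one b)
  generalize orderOf (Γ.s a * Γ.s b) = m at *
  by_cases m2 : m = 2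
  · simp [m2]
  have hζ := Complex.isPrimitiveRoot_exp m hm.ne'
  generalize Complex.exp _ = ζ at hζ
  have hz : ∀ k, ¬ m ∣ 2 * k → ζ ^ k - (ζ ^ k)⁻¹ ≠ 0 := fun k h e => h (hζ.dvd_of_pow_eq_one _ (by
    rw [two_mul, pow_add]
    exact (congrArg _ (sub_eq_zero.mp e)).trans
      (mul_inv_cancel₀ (pow_ne_zero _ (hζ.ne_zero hm.ne')))))
  have hp : ∀ k, (ζ ^ k) ^ m = 1 := fun k => by rw [← pow_mul, mul_comm, pow_mul, hζ.1, one_pow]
  have hn : ∀ k (x : ℚ), ζ ^ k + (ζ ^ k)⁻¹ = x → m ∣ k * 4 ∨ m ∣ k * 6 := fun k x e =>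
    (niven_c hm (hp k) e).imp (fun h => hζ.dvd_of_pow_eq_one _ (pow_mul ζ k 4 ▸ h))
      fun h => hζ.dvd_of_pow_eq_one _ (pow_mul ζ k 6 ▸ h)
  have m3 : ¬ m ∣ 2 * 1 := fun h => by have := Nat.le_of_dvd two_pos h; omega
  rcases Nat.even_or_odd' m with ⟨n, e | e⟩
  · generalize Γ.Q (Γ.s a) = σ at *
    generalize Γ.Q (Γ.s b) = τ at *
    obtain ⟨r, hr⟩ := IsAlgClosed.exists_eq_mul_self (σ * τ : ℂ)
    have r0 : r ≠ 0 := fun h => by
      rw [h, mul_zero] at hr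
      exact (mul_pos s0 t0).ne' (by exact_mod_cast hr)
    have ho : ∀ {p : Prop}, Odd m → p := fun h =>
      (Nat.not_odd_iff_even.mpr ⟨n, by omega⟩ h).elim
    have key : ∀ k, ¬ m ∣ 2 * k → ∃ y : ℚ, r * (ζ ^ k + (ζ ^ k)⁻¹) = y := fun k h => by
      obtain ⟨κ, e1⟩ := hk (hp k) (hz k h) rfl rfl hr.symm ho
      obtain ⟨κ', e2⟩ := hk (r := -r) (hp k) (hz k h) rfl rfl (by rw [hr]; ring) ho
      rw [neg_mul] at e2
      generalize r * (ζ ^ k + (ζ ^ k)⁻¹) = y at e1 e2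
      have h3 : κ + κ' - 2 ≠ 0 := fun h => by
        have : ((σ * (τ - 1) ^ 2 + τ * (σ - 1) ^ 2 : ℚ) : ℂ) = 0 := by
          have := congrArg (Rat.cast : ℚ → ℂ) h
          push_cast at this ⊢
          linear_combination (-1 / 2 : ℂ) * (e1 + e2) + (4 * σ * τ - y ^ 2) / 2 * this
        exact (by positivity : 0 < σ * (τ - 1) ^ 2 + τ * (σ - 1) ^ 2).ne' (Rat.cast_eq_zero.mp this)
      have h4 : y ^ 2 = ((4 * σ * τ * (κ + κ') - 2 * (σ * τ + 1) * (σ + τ)) / (κ + κ' - 2) : ℚ) := by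
        rw [Rat.cast_div, eq_div_iff (Rat.cast_ne_zero.mpr h3)]
        push_cast
        linear_combination -e1 - e2
      generalize (4 * σ * τ * (κ + κ') - 2 * (σ * τ + 1) * (σ + τ)) / (κ + κ' - 2) = u at h4
      refine ⟨(κ * (4 * σ * τ - u) + u - (σ * τ + 1) * (σ + τ)) / ((σ - 1) * (τ - 1)), ?_⟩
      rw [Rat.cast_div, eq_div_iff (Rat.cast_ne_zero.mpr (mul_ne_zero s1 t1))]
      push_cast
      rw [← h4]
      linear_combination -e1
    obtain ⟨y, hy⟩ := key 1 m3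
    have z0 := hζ.ne_zero hm.ne'
    have h3 : ζ ^ 2 + (ζ ^ 2)⁻¹ = (y ^ 2 / (σ * τ) - 2 : ℚ) := by
      push_cast
      rw [← hy, hr]
      field_simp
      ring
    have h4 : m ≠ 12 := fun h => by
      subst h
      obtain ⟨y', hy'⟩ := key 2 (by omega)
      generalize y ^ 2 / (σ * τ) - 2 = x at h3
      have x0 : (x : ℂ) ≠ 0 := fun e => by
        have : ζ ^ 8 = 1 := by
          rw [e] at h3
          field_simp at h3
          linear_combination (ζ ^ 4 - 1) * h3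
        have := hζ.dvd_of_pow_eq_one _ this
        omega
      rw [h3, ← eq_div_iff x0] at hy'
      have := hn 1 (y / (y' / x)) (by push_cast; rw [← hy', ← hy, mul_div_cancel_left₀ _ r0])
      omega
    rcases hn 2 _ h3 with h | h <;> have := Nat.le_of_dvd (by norm_num) h <;>
      interval_cases m <;> first | omega | simp
  · have e1 : Γ.Q (Γ.s b) = Γ.Q (Γ.s a) := by
      rw [e, (prod_alt _ a b n).2, (prod_alt _ b a n).2, mul_comm (Γ.Q (Γ.s b))] at hb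
      exact (mul_left_cancel₀ (by positivity) hb).symm
    obtain ⟨κ, e2⟩ := hk (hp 1) (hz 1 m3) rfl e1 rfl fun _ => ⟨rfl, rfl⟩
    have h3 := hz 1 m3
    have z0 := mul_inv_cancel₀ (pow_ne_zero 1 (hζ.ne_zero hm.ne'))
    generalize Γ.Q (Γ.s a) = σ at *
    have h4 : (σ : ℂ) * (2 + (ζ ^ 1 + (ζ ^ 1)⁻¹)) ≠ 0 := mul_ne_zero (Rat.cast_ne_zero.mpr s0.ne')
      fun h => pow_ne_zero 2 h3 (by linear_combination (ζ ^ 1 + (ζ ^ 1)⁻¹ - 2) * h - 4 * z0)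
    have h5 : (ζ ^ 1 + (ζ ^ 1)⁻¹) * ((σ - κ * σ : ℚ) : ℂ) = (σ ^ 2 + 1 - 2 * κ * σ : ℚ) :=
      mul_left_cancel₀ h4 (by push_cast; linear_combination e2)
    have h6 : σ - κ * σ ≠ 0 := fun h => by
      rw [h, Rat.cast_zero, mul_zero, eq_comm, Rat.cast_eq_zero] at h5
      exact pow_ne_zero 2 s1 (by linear_combination h5 - 2 * h)
    rw [← eq_div_iff (Rat.cast_ne_zero.mpr h6), ← Rat.cast_div] at h5
    rcases hn 1 _ h5 with h | h <;> have := Nat.le_of_dvd (by norm_num) h <;>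
      interval_cases m <;> first | omega | simp

end Br
end Cfsg.Agent.H23
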