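import Mathlib
import Cfsg.Agent.H23.Dih
import Cfsg.Agent.H23.Hk

/-! The generic Hecke algebra; the dimension of its centre at positive parameters. -/

set_option autoImplicit false
set_option linter.unusedSectionVars false

namespace Cfsg.Agent.H23
open Cfsg.Agent.BN Finset Module
open scoped _root_.Classical Matrix ComplexOrder

theorem exists_mul_mul_eq_one {F m n : Type*} [Field F] [Fintype m] [Fintype n]
    (A : Matrix m n F) :
    ∃ (P : Matrix (Fin A.rank) m F) (Q : Matrix n (Fin A.rank) F), P * A * Q = 1 := by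
  obtain ⟨g, hg⟩ := A.mulVecLin.rangeRestrict.exists_rightInverse_of_surjective
    (LinearMap.range_rangeRestrict _)
  obtain ⟨g', hg'⟩ := A.mulVecLin.range.subtype.exists_leftInverse_of_injective
    (Submodule.ker_subtype _)
  let b := (finBasis F A.mulVecLin.range).equivFun
  refine ⟨LinearMap.toMatrix' (b.toLinearMap ∘ₗ g'), LinearMap.toMatrix' (g ∘ₗ b.symm.toLinearMap),
    Matrix.toLin'.injective (LinearMap.ext fun x => ?_)⟩
  have h1 := congrArg Subtype.val (LinearMap.congr_fun hg (b.symm x))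
  have h2 := LinearMap.congr_fun hg' (b.symm x)
  simp only [Matrix.toLin'_mul, Matrix.toLin'_toMatrix', Matrix.toLin'_one, LinearMap.comp_apply,
    LinearMap.id_apply] at h2 ⊢
  exact (congrArg (fun y => b (g' y)) h1).trans ((congrArg b h2).trans (b.apply_symm_apply x))

theorem rank_map_le {R F K m n : Type*} [CommRing R] [Field F] [Field K] [Fintype m] [Fintype n]
    (f : R →+* F) (j : F →+* R) (hj : ∀ x, f (j x) = x) (g : R →+* K) (hg : Function.Injective g)
    (M : Matrix m n R) : (M.map f).rank ≤ (M.map g).rank := by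
  obtain ⟨P, Q, h⟩ := exists_mul_mul_eq_one (M.map f)
  have h1 : f (P.map j * M * Q.map j).det = 1 := by
    rw [RingHom.map_det, RingHom.mapMatrix_apply, Matrix.map_mul, Matrix.map_mul, Matrix.map_map,
      Matrix.map_map, show f ∘ j = id from funext hj, Matrix.map_id, Matrix.map_id, h,
      Matrix.det_one]
  have h2 : IsUnit ((P.map j * M * Q.map j).map g) := (Matrix.isUnit_iff_isUnit_det _).mpr (by
    rw [← RingHom.mapMatrix_apply, ← RingHom.map_det, isUnit_iff_ne_zero, map_ne_zero_iff g hg]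
    exact fun e => by simp [e] at h1)
  have := Matrix.rank_of_isUnit _ h2
  rw [Matrix.map_mul, Matrix.map_mul, Fintype.card_fin] at this
  exact this.ge.trans ((Matrix.rank_mul_le_left _ _).trans (Matrix.rank_mul_le_right _ _))

variable {W : Type*} [Group W] [Fintype W] {ι : Type*} {s : ι → W} {K : Type*} [CommRing K]

/-- commuting left and right regular actions -/
structure HP (s : ι → W) (u : K) (L R : ι → Matrix W W K) (e e' : W → W → K) : Prop where
  hl : HV s (fun _ => u) (fun i => (L i).mulVecLin) e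
  hr : HV s (fun _ => u) (fun i => (R i).mulVecLin) e'
  comm : ∀ i j, Commute (L i) (R j)
  one : e 1 = e' 1
  sl : ∀ M : Matrix W W K, (∀ w, M *ᵥ e w = 0) → M = 0
  sr : ∀ M : Matrix W W K, (∀ w, M *ᵥ e' w = 0) → M = 0

namespace HP
variable {u : K} {L R : ι → Matrix W W K} {e e' : W → W → K} (H : HP s u L R e e') (h : Cx s)
include H

theorem symm : HP s u R L e' e := ⟨H.hr, H.hl, fun i j => (H.comm j i).symm, H.one.symm, H.sr, H.sl⟩

theorem R_comm (w : W) (j : ι) : Commute (h.R L w) (R j) :=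
  Commute.list_prod_left _ _ fun _ hx => let ⟨i, _, e⟩ := List.mem_map.mp hx; e ▸ H.comm i j

theorem R_vec (w : W) : h.R L w *ᵥ e 1 = e w := by
  obtain ⟨hl, e1⟩ := (h.inv.exists_red w).choose_spec
  rw [Cx.R]
  generalize (h.inv.exists_red w).choose = l at hl e1
  subst e1
  induction l with
  | nil => simp
  | cons i l ih =>
    have := h.inv.red_tail hl
    rw [List.map_cons, List.prod_cons, ← Matrix.mulVec_mulVec, ih this, wp_cons]
    refine H.hl.up i _ ?_
    rw [← wp_cons, this, hl, List.length_cons]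
    omega

include h in
theorem ext_one {M N : Matrix W W K} (hM : ∀ j, Commute M (R j)) (hN : ∀ j, Commute N (R j))
    (h1 : M *ᵥ e 1 = N *ᵥ e 1) : M = N := by
  refine sub_eq_zero.mp (H.sr _ fun w => ?_)
  induction w using h.inv.induction_len_left with
  | h1 => rw [← H.one, Matrix.sub_mulVec, h1, sub_self]
  | hs i w hw ih =>
    rw [← H.hr.up i w (by omega), Matrix.mulVecLin_apply, Matrix.mulVec_mulVec,
      ((hM i).sub_left (hN i)).eq, ← Matrix.mulVec_mulVec, ih, Matrix.mulVec_zero]

theorem R_one : h.R L 1 = 1 := H.ext_one h (H.R_comm h 1) (fun _ => Commute.one_left _)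
  (by rw [H.R_vec, Matrix.one_mulVec])

theorem hv : HV s (fun _ => u) (fun i => LinearMap.mulLeft K (L i)) (h.R L) :=
  ⟨fun i w hw => H.ext_one h (fun j => (H.comm i j).mul_left (H.R_comm h w j)) (H.R_comm h _) (by
      rw [LinearMap.mulLeft_apply, ← Matrix.mulVec_mulVec, H.R_vec, H.R_vec]; exact H.hl.up i w hw),
    fun i w hw => H.ext_one h (fun j => (H.comm i j).mul_left (H.R_comm h _ j))
      (fun j => ((H.R_comm h _ j).smul_left _).add_left ((H.R_comm h _ j).smul_left _)) (by
      rw [LinearMap.mulLeft_apply, ← Matrix.mulVec_mulVec, Matrix.add_mulVec, Matrix.smul_mulVec,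
        Matrix.smul_mulVec, H.R_vec, H.R_vec]; exact H.hl.down i w hw)⟩

theorem R_mul {v w : W} (hl : len s (v * w) = len s v + len s w) :
    h.R L v * h.R L w = h.R L (v * w) := by
  induction v using h.inv.induction_len_left with
  | h1 => rw [H.R_one, one_mul, one_mul]
  | hs i v hv ih =>
    have h1 := h.inv.len_mul_le v w
    have h2 := h.inv.len_simple_mul_le i (v * w)
    rw [mul_assoc] at hl
    rw [← (H.hv h).up i v (by omega), LinearMap.mulLeft_apply, mul_assoc, ih (by omega), mul_assoc]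
    exact (H.hv h).up i _ (by omega)

theorem R_up' {i : ι} {w : W} (hw : len s w < len s (s i * w)) :
    h.R L w⁻¹ * L i = h.R L (s i * w)⁻¹ := by
  have h1 := (H.hv h).up i 1 (by rw [mul_one, h.len_s, len_one]; omega)
  rw [LinearMap.mulLeft_apply, H.R_one, mul_one, mul_one] at h1
  have h2 := h.len_sl i w
  rw [h1, H.R_mul, mul_inv_rev, h.s_inv]
  rw [h.len_sr_inv, h.len_inv, h.len_s]
  omega

theorem R_cent {x : W → K} (hx : ∀ i, L i *ᵥ x = R i *ᵥ x) (w : W) :
    h.R R w *ᵥ x = h.R L w⁻¹ *ᵥ x := by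
  induction w using h.inv.induction_len_left with
  | h1 => rw [inv_one, H.R_one, H.symm.R_one]
  | hs i w hw ih =>
    rw [← (H.symm.hv h).up i w (by omega), LinearMap.mulLeft_apply, ← Matrix.mulVec_mulVec, ih,
      Matrix.mulVec_mulVec, ← (H.R_comm h _ i).eq, ← Matrix.mulVec_mulVec, ← hx,
      Matrix.mulVec_mulVec, H.R_up' h (by omega)]

theorem mul_cas {c : W → K} (hc : ∀ i w, len s w < len s (s i * w) → c w = u * c (s i * w))
    (i : ι) : L i * ∑ w, c w • (h.R L w * h.R R w) = R i * ∑ w, c w • (h.R L w * h.R R w) := by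
  have := (H.hv h).casimir h (H.symm.hv h) hc (LinearMap.mul K _) i
  simpa only [LinearMap.mulLeft_apply, LinearMap.mul_apply', mul_sum, mul_smul_comm, ← mul_assoc,
    (H.R_comm h _ i).eq] using this

end HP

/-- the matrix sending `w` to `π w` if `p w` and to `u π w + (u - 1) w` otherwise -/
noncomputable def tm (u : K) (π : W → W) (p : W → Prop) : Matrix W W K := Matrix.of fun y w =>
  (if y = π w then if p w then 1 else u else 0) + if y = w then if p w then 0 else u - 1 else 0

theorem tm_map {K' : Type*} [CommRing K'] (f : K →+* K') (u : K) (π : W → W) (p : W → Prop) :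
    (tm u π p).map f = tm (f u) π p := by
  ext y w
  simp [tm, apply_ite f]

theorem tm_single (u : K) (π : W → W) (p : W → Prop) (w : W) : tm u π p *ᵥ Pi.single w 1 =
    (if p w then 1 else u) • Pi.single (π w) 1 + (if p w then 0 else u - 1) • Pi.single w 1 := by
  ext y
  simp [tm, Pi.single_apply, -ite_smul]

theorem eq_zero_of_single {M : Matrix W W K} (h : ∀ w, M *ᵥ Pi.single w 1 = 0) : M = 0 := by
  ext y w
  simpa using congrFun (h w) y

theorem tm_comm (u : K) {π π' : W → W} {p p' : W → Prop} (h1 : ∀ w, π (π' w) = π' (π w))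
    (h2 : ∀ w, ((p (π' w) ↔ p w) ∧ (p' (π w) ↔ p' w)) ∨
      (π' w = π w ∧ (p' w ↔ p w) ∧ (p' (π w) ↔ p (π w)))) : Commute (tm u π p) (tm u π' p') := by
  refine sub_eq_zero.mp (eq_zero_of_single fun w => ?_)
  simp only [Matrix.sub_mulVec, ← Matrix.mulVec_mulVec, tm_single, Matrix.mulVec_add,
    Matrix.mulVec_smul, h1]
  rcases h2 w with ⟨e1, e2⟩ | ⟨e1, e2, e3⟩
  · simp only [e1, e2]; module
  · simp only [e1, e2, e3]; module

variable (s) in
/-- left multiplication by a generator -/
noncomputable def Lm (u : K) (i : ι) : Matrix W W K :=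
  tm u (s i * ·) fun w => len s w < len s (s i * w)

variable (s) in
/-- right multiplication by a generator -/
noncomputable def Rm (u : K) (i : ι) : Matrix W W K :=
  tm u (· * s i) fun w => len s w < len s (w * s i)

namespace Cx
variable (h : Cx s)
include h

theorem up_iff {i j : ι} {w : W} (hn : s i * w ≠ w * s j) :
    len s (s i * w) < len s (s i * w * s j) ↔ len s w < len s (w * s j) := by
  have key : ∀ w, s i * w ≠ w * s j → len s w < len s (w * s j) →
      len s (s i * w) < len s (s i * w * s j) := fun w hn hw =>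
    (h.deodhar (K := {j}) (fun _ e => e ▸ hw) i).elim (fun e => e j rfl)
      fun ⟨_, e1, e2⟩ => (hn (e1 ▸ e2)).elim
  refine ⟨fun e => ?_, key w hn⟩
  simpa only [h.inv.cancel_left] using key _ (fun e => hn (by
    rw [h.inv.cancel_left] at e; rw [← h.inv.cancel_right j (s i * w), ← e])) e

theorem hp (u : K) : HP s u (Lm s u) (Rm s u) (fun w => Pi.single w 1)
    fun w => Pi.single w⁻¹ 1 where
  hl := ⟨fun i w hw => by simp [Lm, tm_single, hw, -Matrix.mulVec_single], fun i w hw => by
    simp [Lm, tm_single, hw.le.not_gt, h.inv.cancel_left, add_comm, -Matrix.mulVec_single]⟩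
  hr := ⟨fun i w hw => by
      simp [Rm, tm_single, hw, h.len_inv, h.len_sr_inv, h.s_inv, -Matrix.mulVec_single],
    fun i w hw => by
      simp [Rm, tm_single, hw.le.not_gt, h.inv.cancel_right, h.len_inv, h.len_sr_inv, h.s_inv,
        add_comm, -Matrix.mulVec_single]⟩
  comm i j := tm_comm u (fun _ => (mul_assoc _ _ _).symm) fun w => by
    by_cases e : s i * w = w * s j
    · exact .inr ⟨e.symm, by rw [e], by rw [h.inv.cancel_left, e, h.inv.cancel_right]⟩
    · refine .inl ⟨?_, h.up_iff e⟩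
      have := h.up_iff (i := j) (j := i) (w := w⁻¹) fun e' => e (h.conj_inv.mp e')
      rwa [h.len_sl_inv, h.len_sr_inv, h.len_inv, ← h.len_inv (_ * s i), mul_inv_rev, mul_inv_rev,
        inv_inv, h.s_inv, h.s_inv] at this
  one := by simp
  sl _ := eq_zero_of_single
  sr _ h := eq_zero_of_single fun w => by simpa using h w⁻¹

/-- the Casimir operator -/
noncomputable def cas (u : K) : Matrix W W K :=
  ∑ w, u ^ (len s (h.w0 Set.univ) - len s w) • (h.R (Lm s u) w * h.R (Rm s u) w)

theorem cas_map {K' : Type*} [CommRing K'] (f : K →+* K') (u : K) :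
    (h.cas u).map f = h.cas (f u) := by
  have key : ∀ (L : ι → Matrix W W K) w, (h.R L w).map f = h.R (fun i => (L i).map f) w :=
    fun L w => (map_list_prod f.mapMatrix _).trans (by rw [List.map_map]; rfl)
  rw [cas, ← RingHom.mapMatrix_apply, map_sum]
  refine sum_congr rfl fun w _ => ?_
  rw [RingHom.mapMatrix_apply, Matrix.map_smul' _ _ _ (map_mul f), Matrix.map_mul, key, key,
    map_pow]
  simp only [Lm, Rm, tm_map]
  rfl

theorem mul_cas (u : K) (i : ι) : Lm s u i * h.cas u = Rm s u i * h.cas u :=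
  (h.hp u).mul_cas h (fun i w hw => by
    have := h.len_le_w0 (h.mem_WJ_univ (s i * w))
    have := h.len_sl i w
    rw [← pow_succ']; congr 1; omega) i

theorem cas_inj {u : ℝ} (hu : 0 < u) {x : W → ℂ} (hx : ∀ i, Lm s (u : ℂ) i *ᵥ x = Rm s (u : ℂ) i *ᵥ x)
    (h0 : h.cas (u : ℂ) *ᵥ x = 0) : x = 0 := by
  have H := h.hp (u : ℂ)
  let D : Matrix W W ℂ := Matrix.diagonal fun w => (u : ℂ) ^ len s w
  have hu' : ∀ n : ℕ, (0 : ℂ) < (u : ℂ) ^ n := fun n => pow_pos (by exact_mod_cast hu) n
  have hD : D.PosDef := Matrix.posDef_diagonal_iff.mpr fun w => hu' _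
  have h1 : ∀ i, (Lm s (u : ℂ) i)ᴴ * D = D * Lm s (u : ℂ) i := fun i => by
    ext y w
    have hn : ∀ w, w ≠ s i * w := fun w e => by have := h.len_sl i w; rw [← e] at this; omega
    simp only [D, Matrix.mul_diagonal, Matrix.diagonal_mul, Matrix.conjTranspose_apply, Lm, tm,
      Matrix.of_apply]
    by_cases e : y = w
    · subst e
      simp [hn y, apply_ite (starRingEnd ℂ), mul_comm]
    by_cases e' : y = s i * w
    · subst e'
      rcases h.len_sl i w with e1 | e1
      · simp [e, hn w, h.inv.cancel_left, e1, pow_succ']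
      · simp [e, hn w, h.inv.cancel_left, ← e1, pow_succ]
    · have : w ≠ s i * y := fun e => e' (by rw [e, h.inv.cancel_left])
      simp [e, e', this, Ne.symm e]
  have h2 : ∀ w, (h.R (Lm s (u : ℂ)) w)ᴴ * D = D * h.R (Lm s (u : ℂ)) w⁻¹ := fun w => by
    induction w using h.inv.induction_len_left with
    | h1 => simp [H.R_one]
    | hs i w hw ih =>
      rw [← (H.hv h).up i w (by omega), LinearMap.mulLeft_apply, Matrix.conjTranspose_mul,
        mul_assoc, h1, ← mul_assoc, ih, mul_assoc, H.R_up' h (by omega)]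
  have h3 : (∑ w, (u : ℂ) ^ (len s (h.w0 Set.univ) - len s w) •
      ((h.R (Lm s (u : ℂ)) w⁻¹)ᴴ * D * h.R (Lm s (u : ℂ)) w⁻¹)).PosDef := by
    rw [← add_sum_erase _ _ (mem_univ 1), inv_one, H.R_one, Matrix.conjTranspose_one, one_mul,
      mul_one]
    exact (hD.smul (hu' _)).add_posSemidef (Matrix.posSemidef_sum _ fun w _ =>
      (hD.posSemidef.conjTranspose_mul_mul_same _).smul (hu' _).le)
  refine Matrix.mulVec_injective_iff_isUnit.mpr h3.isUnit ?_
  have := congrArg (D *ᵥ ·) h0
  simpa only [cas, Matrix.sum_mulVec, Matrix.mulVec_sum, Matrix.smul_mulVec, Matrix.mulVec_smul,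
    ← Matrix.mulVec_mulVec, H.R_cent h hx, h2, inv_inv, Matrix.mulVec_zero] using this

end Cx

variable (s) in
/-- the equations of the centre -/
noncomputable def Cm (u : K) : Matrix (ι × W) W K :=
  Matrix.of fun p w => (Lm s u p.1 - Rm s u p.1) p.2 w

theorem Cm_map {K' : Type*} [CommRing K'] (f : K →+* K') (u : K) :
    (Cm s u).map f = Cm s (f u) := by
  ext p w
  simp [Cm, Lm, Rm, ← tm_map]

theorem mem_ker_Cm {u : K} {x : W → K} :
    x ∈ (Cm s u).mulVecLin.ker ↔ ∀ i, Lm s u i *ᵥ x = Rm s u i *ᵥ x := by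
  simp only [← sub_eq_zero (a := Lm s u _ *ᵥ x), ← Matrix.sub_mulVec, funext_iff]
  exact ⟨fun h i w => congrFun h (i, w), fun h => funext fun p => h p.1 p.2⟩

namespace Cx
variable (h : Cx s) [Fintype ι]
include h

theorem cas_mem (u : K) (x : W → K) : h.cas u *ᵥ x ∈ (Cm s u).mulVecLin.ker :=
  mem_ker_Cm.mpr fun i => by rw [Matrix.mulVec_mulVec, Matrix.mulVec_mulVec, h.mul_cas]

theorem cas_surj {u : ℝ} (hu : 0 < u) {x : W → ℂ} (hx : x ∈ (Cm s (u : ℂ)).mulVecLin.ker) :
    ∃ y, h.cas (u : ℂ) *ᵥ y = x := by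
  obtain ⟨y, hy⟩ := LinearMap.surjective_of_injective (f := (h.cas (u : ℂ)).mulVecLin.restrict
    fun x (_ : x ∈ (Cm s (u : ℂ)).mulVecLin.ker) => h.cas_mem _ x)
    ((injective_iff_map_eq_zero _).mpr fun y e => Subtype.ext
      (h.cas_inj hu (mem_ker_Cm.mp y.2) (congrArg Subtype.val e))) ⟨x, hx⟩
  exact ⟨y, congrArg Subtype.val hy⟩

theorem rank_Cm {u : ℝ} (hu : 0 < u) : (Cm s (u : ℂ)).rank =
    (Cm s (algebraMap (Polynomial ℂ) (RatFunc ℂ) Polynomial.X)).rank := by
  have h1 := rank_map_le (Polynomial.evalRingHom (u : ℂ)) Polynomial.C (by simp) _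
    (IsFractionRing.injective (Polynomial ℂ) (RatFunc ℂ)) (Cm s Polynomial.X)
  have h2 := rank_map_le (Polynomial.evalRingHom (u : ℂ)) Polynomial.C (by simp) _
    (IsFractionRing.injective (Polynomial ℂ) (RatFunc ℂ)) (h.cas Polynomial.X)
  rw [Cm_map, Cm_map] at h1
  rw [cas_map, cas_map] at h2
  simp only [Polynomial.coe_evalRingHom, Polynomial.eval_X] at h1 h2
  generalize algebraMap (Polynomial ℂ) (RatFunc ℂ) Polynomial.X = v at *
  have h3 := Matrix.rank_add_rank_le_card_of_mul_eq_zero (A := Cm s v) (B := h.cas v) (by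
    ext p w
    have : (Lm s v p.1 - Rm s v p.1) * h.cas v = 0 := by rw [sub_mul, h.mul_cas, sub_self]
    exact congrFun₂ this p.2 w)
  have h4 := (Cm s (u : ℂ)).mulVecLin.finrank_range_add_finrank_ker
  have h5 := Submodule.finrank_mono (show _ ≤ (h.cas (u : ℂ)).mulVecLin.range from
    fun x hx => h.cas_surj hu hx)
  rw [finrank_fintype_fun_eq_card] at h4
  unfold Matrix.rank at *
  omega

theorem finrank_ker_Cm {u : ℝ} (hu : 0 < u) :
    finrank ℂ (Cm s (u : ℂ)).mulVecLin.ker = Nat.card (ConjClasses W) := by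
  have h1 := (Cm s (u : ℂ)).mulVecLin.finrank_range_add_finrank_ker
  have h2 := (Cm s ((1 : ℝ) : ℂ)).mulVecLin.finrank_range_add_finrank_ker
  have h3 := (h.rank_Cm hu).trans (h.rank_Cm one_pos).symm
  have h4 : (Cm s ((1 : ℝ) : ℂ)).mulVecLin.ker = Char.classFunSubmodule W := by
    ext x
    have e : ∀ (π : W → W) (p : W → Prop), (∀ y, π (π y) = y) → tm (1 : ℂ) π p *ᵥ x = x ∘ π :=
      fun π p hπ => funext fun y => by
        simp [tm, Matrix.mulVec, dotProduct,
          show ∀ w, y = π w ↔ π y = w from fun w => ⟨fun e => e ▸ hπ w, fun e => e ▸ (hπ y).symm⟩]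
    simp only [mem_ker_Cm, Complex.ofReal_one, Lm, Rm, e _ _ (h.inv.cancel_left _),
      e (· * s _) _ (h.inv.cancel_right _), Char.mem_classFunSubmodule, funext_iff, Function.comp_apply]
    refine ⟨fun hx g w => ?_, fun hx i w => Char.classFun_mul_comm hx _ _⟩
    induction w using h.inv.induction_left with
    | h1 => simp
    | hs i w ih =>
      rw [mul_inv_rev, h.s_inv, mul_assoc, mul_assoc, hx, ← mul_assoc g, ← mul_assoc w,
        h.inv.cancel_right, ← mul_assoc, ih]
  rw [h4, ← (Char.classFunEquiv W).finrank_eq] at h2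
  unfold Matrix.rank at h3
  rw [Nat.card_eq_fintype_card, ← finrank_fintype_fun_eq_card ℂ]
  omega

end Cx
end Cfsg.Agent.H23
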