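import Mathlib
import Cfsg.Agent.H23.HkG
import Cfsg.Agent.H23.SBC
import Cfsg.Agent.Char.Constit

/-! The constituents of the permutation character on the cosets of a Borel subgroup. -/

set_option autoImplicit false
set_option linter.unusedSectionVars false

namespace Cfsg.Agent.H23
open Cfsg.Agent.BN Cfsg.Agent.Block Cfsg.Agent.Char Finset Module MonoidAlgebra
open scoped _root_.Classical Matrix

theorem HV.map_eq {W : Type*} [Group W] {ι : Type*} {s : ι → W} {K : Type*} [CommRing K] {q : ι → K}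
    {V V' : Type*} [AddCommGroup V] [Module K V] [AddCommGroup V'] [Module K V'] (h : Cx s)
    {L : ι → V →ₗ[K] V} {T : W → V} {L' : ι → V' →ₗ[K] V'} {T' : W → V'} (h1 : HV s q L T)
    (h2 : HV s q L' T') (φ : V →ₗ[K] V') (hφ : ∀ w, φ (T w) = T' w) (i : ι) (w : W) :
    φ (L i (T w)) = L' i (φ (T w)) := by
  rcases h.len_sl i w with e | e
  · rw [h1.up i w (by omega), hφ, hφ, h2.up i w (by omega)]
  · have e' : len s (s i * w) < len s (s i * (s i * w)) := by rw [h.inv.cancel_left]; omega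
    have e1 := h1.down i _ e'
    have e2 := h2.down i _ e'
    rw [h.inv.cancel_left] at e1 e2
    rw [e1, hφ, e2, map_add, map_smul, map_smul, hφ, hφ]

theorem idem_mul_eq_zero {G : Type*} [Group G] [Fintype G] {e : MonoidAlgebra ℂ G} (he : e * e = e)
    {χ : IrrCharacter G} (h : lin (χ : G → ℂ) e = 0) : blockIdem {χ} * e = 0 := by
  obtain ⟨n, h1, h2⟩ := (exists_nat_of_idem (x := blockIdem {χ} * e) (c := 1) (by
    rw [one_smul, mul_assoc, ← mul_assoc e, ← ((isCentral_blockIdem _).commute e).eq, mul_assoc, he,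
      ← mul_assoc, blockIdem_mul_self])).2 rfl
  refine h2 (Nat.cast_eq_zero.mp (h1.symm.trans ?_))
  have h3 : lin (regChar G) (blockIdem {χ} * e) = 0 := by
    rw [regChar_eq_sum, lin_sum_left]
    refine sum_eq_zero fun ψ _ => ?_
    by_cases e' : ψ = χ
    · rw [lin_smul_left, lin_blockIdem_mul_of_mem (by exact e'), e', h, mul_zero]
    · rw [lin_smul_left, lin_blockIdem_mul_of_notMem (by exact e'), mul_zero]
  rwa [lin_apply, sum_eq_single 1 (fun g _ hg => by rw [regChar_of_ne hg, mul_zero]) (by simp),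
    regChar_one, mul_comm] at h3

theorem finrank_cent_mul {G : Type*} [Group G] [Fintype G] {e : MonoidAlgebra ℂ G} (he : e * e = e)
    {Z : Submodule ℂ (MonoidAlgebra ℂ G)} (hZ : ∀ y, y ∈ Z ↔ ∃ z, IsCentral z ∧ y = z * e) :
    finrank ℂ Z = Nat.card {χ : IrrCharacter G // lin (χ : G → ℂ) e ≠ 0} := by
  have h1 : LinearIndependent ℂ fun χ : {χ : IrrCharacter G // lin (χ : G → ℂ) e ≠ 0} =>
      blockIdem {χ.1} * e := LinearIndependent.of_pairwise_dual_eq_zero_one _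
    (fun χ => (lin (χ.1 : G → ℂ) e)⁻¹ • lin (χ.1 : G → ℂ))
    (fun χ ψ h => (congrArg (_ * ·) (lin_blockIdem_mul_of_notMem (B := {ψ.1})
      (fun e => h (Subtype.ext e)) e)).trans (mul_zero _))
    fun χ => (congrArg ((lin (χ.1 : G → ℂ) e)⁻¹ * ·) (lin_blockIdem_mul_of_mem (B := {χ.1}) rfl e)).trans
      (inv_mul_cancel₀ χ.2)
  rw [Nat.card_eq_fintype_card, ← finrank_span_eq_card h1]
  refine congrArg (fun Z : Submodule ℂ (MonoidAlgebra ℂ G) => finrank ℂ Z)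
    (le_antisymm (fun y hy => ?_) (Submodule.span_le.mpr ?_))
  · obtain ⟨z, hz, rfl⟩ := (hZ y).mp hy
    rw [hz.sum_idem, sum_mul]
    refine sum_mem fun χ _ => ?_
    rw [smul_mul_assoc]
    by_cases h : lin (χ : G → ℂ) e = 0
    · rw [idem_mul_eq_zero he h, smul_zero]; exact zero_mem _
    · exact Submodule.smul_mem _ _ (Submodule.subset_span ⟨⟨χ, h⟩, rfl⟩)
  · rintro _ ⟨χ, rfl⟩
    exact (hZ _).mpr ⟨_, isCentral_blockIdem _, rfl⟩

namespace Br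
variable {G : Type*} [Group G] [Fintype G] {W : Type*} [Group W] [Fintype W] {ι : Type*}
  (Γ : Br G W ι)

theorem T_mul {v w : W} (hl : len Γ.s (v * w) = len Γ.s v + len Γ.s w) :
    Γ.T v * Γ.T w = Γ.T (v * w) := by
  induction v using Γ.cx.inv.induction_len_left with
  | h1 => rw [one_mul_T, one_mul]
  | hs i v hv ih =>
    have h1 := Γ.cx.inv.len_mul_le v w
    have h2 := Γ.cx.inv.len_simple_mul_le i (v * w)
    rw [mul_assoc] at hl
    rw [← Γ.T_up (by omega), mul_assoc, ih (by omega), mul_assoc, Γ.T_up (by omega)]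

theorem T_mul_one (w : W) : Γ.T w * Γ.T 1 = Γ.T w := by
  rw [Γ.T_mul (by simp [len_one]), mul_one]

theorem T_up' {i : ι} {w : W} (h : len Γ.s w < len Γ.s (Γ.s i * w)) :
    Γ.T w⁻¹ * Γ.T (Γ.s i) = Γ.T (Γ.s i * w)⁻¹ := by
  have := Γ.cx.len_sl i w
  rw [Γ.T_mul (by rw [Γ.cx.len_sr_inv, Γ.cx.len_inv, Γ.cx.len_s]; omega), mul_inv_rev, Γ.cx.s_inv]

theorem hv' : HV Γ.s (fun i => (Γ.Q (Γ.s i) : ℂ)) (fun i => LinearMap.mulRight ℂ (Γ.T (Γ.s i)))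
    fun w => Γ.T w⁻¹ :=
  ⟨fun _ _ h => Γ.T_up' h, fun i w h => by
    rw [LinearMap.mulRight_apply, ← Γ.T_up' h, mul_assoc, T_sq, mul_add, mul_smul_comm,
      mul_smul_comm, T_mul_one]⟩

/-- the Hecke algebra inside the group algebra -/
noncomputable def π : (W → ℂ) →ₗ[ℂ] MonoidAlgebra ℂ G := Fintype.linearCombination ℂ Γ.T

theorem π_single (w : W) : Γ.π (Pi.single w 1) = Γ.T w := by simp [π]

theorem coeff_π (x : W → ℂ) (g : G) : (Γ.π x).coeff g = x (Γ.d g) * (Nat.card Γ.B : ℂ)⁻¹ := by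
  simp [π, Fintype.linearCombination_apply, coeff_T]

theorem π_inj : Function.Injective Γ.π := fun x y e => funext fun w => by
  obtain ⟨g, rfl⟩ := Γ.surj w
  exact mul_right_cancel₀ (inv_ne_zero card_ne_zero) (by rw [← coeff_π, e, coeff_π])

theorem π_mul_one (x : W → ℂ) : Γ.π x * Γ.T 1 = Γ.π x := by
  simp [π, Fintype.linearCombination_apply, sum_mul, T_mul_one]

theorem one_mul_π (x : W → ℂ) : Γ.T 1 * Γ.π x = Γ.π x := by
  simp [π, Fintype.linearCombination_apply, mul_sum, one_mul_T]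

variable {Γ} in
theorem single_mul_T {b : G} (hb : b ∈ Γ.B) (w : W) : single b 1 * Γ.T w = Γ.T w :=
  ga_ext fun g => by rw [coeff_single_mul_apply, one_mul, coeff_T, coeff_T, d_B_mul (inv_mem hb)]

variable {Γ} in
theorem T_mul_single {b : G} (hb : b ∈ Γ.B) (w : W) : Γ.T w * single b 1 = Γ.T w :=
  ga_ext fun g => by rw [coeff_mul_single_apply, mul_one, coeff_T, coeff_T, d_mul_B (inv_mem hb)]

theorem exists_π (y : MonoidAlgebra ℂ G) : ∃ x, Γ.π x = Γ.T 1 * y * Γ.T 1 := by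
  have h1 : ∀ b ∈ Γ.B, single b 1 * (Γ.T 1 * y * Γ.T 1) = Γ.T 1 * y * Γ.T 1 := fun b hb => by
    rw [← mul_assoc, ← mul_assoc, single_mul_T hb]
  have h2 : ∀ b ∈ Γ.B, Γ.T 1 * y * Γ.T 1 * single b 1 = Γ.T 1 * y * Γ.T 1 := fun b hb => by
    rw [mul_assoc, T_mul_single hb]
  generalize Γ.T 1 * y * Γ.T 1 = z at h1 h2
  obtain ⟨f, hf⟩ := Γ.surj.hasRightInverse
  refine ⟨fun w => z.coeff (f w) * Nat.card Γ.B, ga_ext fun g => ?_⟩
  obtain ⟨b, hb, b', hb', e⟩ := Γ.d_eq.mp (hf (Γ.d g)).symm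
  rw [coeff_π, mul_inv_cancel_right₀ card_ne_zero, e, ← h2 b' hb', coeff_mul_single_mul, mul_one,
    ← h1 b hb, coeff_single_mul_mul, one_mul, h1 b hb, h2 b' hb']

theorem T_eq (g : G) : Γ.T (Γ.d g) = (Γ.Q (Γ.d g) : ℂ) • (Γ.T 1 * single g 1 * Γ.T 1) := by
  have : Γ.T (Γ.d g) = ∑ x with Γ.d x = Γ.d g, (Nat.card Γ.B : ℂ)⁻¹ • single x 1 := by
    rw [T, ofFun_eq_sum, sum_filter]
    exact sum_congr rfl fun x _ => by split_ifs <;> simp
  rw [← Γ.one_mul_T (Γ.d g), ← Γ.T_mul_one (Γ.d g), this, sum_mul, mul_sum, sum_congr rfl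
    (g := fun _ => (Nat.card Γ.B : ℂ)⁻¹ • (Γ.T 1 * single g 1 * Γ.T 1)) fun x hx => ?_, sum_const,
    ← Nat.cast_smul_eq_nsmul ℂ, smul_smul, card_cell, mul_inv_cancel_right₀ card_ne_zero]
  obtain ⟨b, hb, b', hb', rfl⟩ := Γ.d_eq.mp (mem_filter.mp hx).2
  rw [smul_mul_assoc, mul_smul_comm, ← single_one_mul_single_one, ← single_one_mul_single_one,
    ← mul_assoc, ← mul_assoc, ← mul_assoc, T_mul_single hb, mul_assoc _ (single b' 1), single_mul_T hb']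

variable {u : ℝ} (hq : ∀ i, (Γ.Q (Γ.s i) : ℂ) = u)
include hq

theorem π_L (i : ι) (x : W → ℂ) : Γ.π (Lm Γ.s (u : ℂ) i *ᵥ x) = Γ.T (Γ.s i) * Γ.π x :=
  LinearMap.congr_fun (f := Γ.π ∘ₗ (Lm Γ.s (u : ℂ) i).mulVecLin)
    (g := LinearMap.mulLeft ℂ (Γ.T (Γ.s i)) ∘ₗ Γ.π) ((Pi.basisFun ℂ W).ext fun w => by
      rw [Pi.basisFun_apply]
      exact (Γ.cx.hp (u : ℂ)).hl.map_eq Γ.cx (funext hq ▸ Γ.hv) Γ.π Γ.π_single i w) x

theorem π_R (i : ι) (x : W → ℂ) : Γ.π (Rm Γ.s (u : ℂ) i *ᵥ x) = Γ.π x * Γ.T (Γ.s i) :=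
  LinearMap.congr_fun (f := Γ.π ∘ₗ (Rm Γ.s (u : ℂ) i).mulVecLin)
    (g := LinearMap.mulRight ℂ (Γ.T (Γ.s i)) ∘ₗ Γ.π) ((Pi.basisFun ℂ W).ext fun w => by
      rw [Pi.basisFun_apply, ← inv_inv w]
      exact (Γ.cx.hp (u : ℂ)).hr.map_eq Γ.cx (funext hq ▸ Γ.hv') Γ.π
        (fun w => Γ.π_single w⁻¹) i w⁻¹) x

theorem π_RL (w : W) (x : W → ℂ) : Γ.π (Γ.cx.R (Lm Γ.s (u : ℂ)) w *ᵥ x) = Γ.T w * Γ.π x := by
  induction w using Γ.cx.inv.induction_len_left with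
  | h1 => rw [(Γ.cx.hp _).R_one, Matrix.one_mulVec, one_mul_π]
  | hs i w hw ih =>
    rw [← ((Γ.cx.hp _).hv Γ.cx).up i w (by omega), LinearMap.mulLeft_apply, ← Matrix.mulVec_mulVec,
      Γ.π_L hq, ih, ← mul_assoc, Γ.T_up (by omega)]

theorem π_RR (w : W) (x : W → ℂ) : Γ.π (Γ.cx.R (Rm Γ.s (u : ℂ)) w *ᵥ x) = Γ.π x * Γ.T w⁻¹ := by
  induction w using Γ.cx.inv.induction_len_left with
  | h1 => rw [(Γ.cx.hp _).symm.R_one, Matrix.one_mulVec, inv_one, π_mul_one]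
  | hs i w hw ih =>
    rw [← ((Γ.cx.hp _).symm.hv Γ.cx).up i w (by omega), LinearMap.mulLeft_apply,
      ← Matrix.mulVec_mulVec, Γ.π_R hq, ih, mul_assoc, Γ.T_up' (by omega)]

theorem Q_eq (w : W) : (Γ.Q w : ℂ) = u ^ len Γ.s w := by
  induction w using Γ.cx.inv.induction_len_left with
  | h1 => simp [Q_one, len_one]
  | hs i w hw ih => rw [Γ.Q_up (by omega), Rat.cast_mul, hq, ih, hw, pow_succ']

theorem π_cas (x : W → ℂ) : Γ.π (Γ.cx.cas (u : ℂ) *ᵥ x) =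
    ((u : ℂ) ^ len Γ.s (Γ.cx.w0 Set.univ) * (Nat.card Γ.B : ℂ)⁻¹) •
      (Γ.T 1 * (∑ g, single g 1 * Γ.π x * single g⁻¹ 1) * Γ.T 1) := by
  rw [Cx.cas, Matrix.sum_mulVec, map_sum, mul_sum, sum_mul, ← sum_fiberwise univ Γ.d, smul_sum]
  refine sum_congr rfl fun w _ => ?_
  rw [Matrix.smul_mulVec, map_smul, ← Matrix.mulVec_mulVec, Γ.π_RL hq, Γ.π_RR hq, sum_congr rfl
    (g := fun _ => ((Γ.Q w : ℂ)⁻¹ * (Γ.Q w : ℂ)⁻¹) • (Γ.T w * (Γ.π x * Γ.T w⁻¹))) fun g hg => ?_,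
    sum_const, ← Nat.cast_smul_eq_nsmul ℂ, smul_smul, smul_smul, card_cell]
  · have := Γ.Q_ne w
    have := card_ne_zero (G := Γ.B)
    congr 1
    field_simp
    rw [Γ.Q_eq hq, ← pow_add, Nat.sub_add_cancel (Γ.cx.len_le_w0 (Γ.cx.mem_WJ_univ w))]
  · rw [← (mem_filter.mp hg).2, ← Γ.d_inv, Γ.T_eq g, Γ.T_eq g⁻¹, Γ.Q_eq hq (Γ.d g⁻¹), Γ.d_inv,
      Γ.cx.len_inv, ← Γ.Q_eq hq]
    simp only [smul_mul_assoc, mul_smul_comm, smul_smul, mul_assoc, one_mul_π,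
      inv_mul_cancel_left₀ (Γ.Q_ne _), inv_mul_cancel₀ (Γ.Q_ne _), one_smul]
    rw [← mul_assoc (Γ.π x) (Γ.T 1), π_mul_one, ← mul_assoc (Γ.T 1) (Γ.π x), one_mul_π]

theorem card_constit [Fintype ι] (hu : 0 < u) : Nat.card {χ : IrrCharacter G //
    ∃ φ : G → ℂ, IsCharacter G φ ∧ fixedPointCharacter Γ.B = (χ : G → ℂ) + φ} =
    Nat.card (ConjClasses W) := by
  rw [← Γ.cx.finrank_ker_Cm hu, (Submodule.equivMapOfInjective _ Γ.π_inj _).finrank_eq,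
    finrank_cent_mul (Γ.one_mul_T 1) fun y => ⟨?_, ?_⟩]
  · refine Nat.card_congr (Equiv.subtypeEquivRight fun χ => ?_)
    have h1 : fixedPointCharacter Γ.B = indFun Γ.B fun _ => 1 :=
      funext fun g => (IndTI.indFun_one_eq_card_fixedBy _ g).symm
    have h2 : lin (χ : G → ℂ) (Γ.T 1) = classInner (χ : G → ℂ) (fixedPointCharacter Γ.B) := by
      rw [h1, Ind.inner_indFun_right _ _ (irr_classFun χ), classInner, lin_apply, mul_sum]
      simp only [coeff_T, d_eq_one, ite_mul, zero_mul, ← sum_filter, map_one, mul_one]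
      exact sum_subtype _ (by simp) _
    rw [h2, Ne, classInner_eq_zero_comm]
    refine ⟨fun ⟨φ, h3, h4⟩ => h4 ▸ Constit.inner_add_ne_zero_left (irr_isChar χ) h3 (irr_isChar χ)
      (by rw [classInner_isIrr_self χ.2]; exact one_ne_zero),
      Constit.exists_add_of_inner_ne_zero (h1 ▸ IndRep.isChar_indFun _ isChar_one) χ.2⟩
  · rintro ⟨x, hx, rfl⟩
    obtain ⟨x, rfl⟩ := Γ.cx.cas_surj hu hx
    have hz : IsCentral (∑ g, single g 1 * Γ.π x * single g⁻¹ 1) := fun g h => by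
      simp only [coeff_sum_apply, coeff_conj]
      exact Fintype.sum_equiv (Equiv.mulLeft h⁻¹) _ _ fun a => by simp [mul_assoc]
    exact ⟨_, hz.smul _, by rw [Γ.π_cas hq, ← (hz.commute _).eq, mul_assoc, one_mul_T,
      smul_mul_assoc]⟩
  · rintro ⟨z, hz, rfl⟩
    obtain ⟨x, hx⟩ := Γ.exists_π z
    rw [← (hz.commute _).eq, mul_assoc, one_mul_T] at hx
    refine ⟨x, mem_ker_Cm.mpr fun i => Γ.π_inj ?_, hx⟩
    rw [Γ.π_L hq, Γ.π_R hq, hx, ← mul_assoc, ← (hz.commute _).eq, mul_assoc, mul_assoc, one_mul_T,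
      T_mul_one]

end Br

namespace SB
variable {p : ℕ} [Fact p.Prime] {G : Type*} [Group G] [Fintype G] {W : Type*} [Group W] [Fintype W]
  {ι : Type*} (S : SB p G W ι)

/-- the Bruhat decomposition -/
noncomputable def br : Br G W ι where
  s := S.s
  cx := S.cx
  B := S.B
  d := S.cw
  surj w := ⟨_, (Cell.of_M (S.M_nu w)).cw_eq⟩
  d_eq {g g'} := ⟨fun e => by
      obtain ⟨u, hu, a, ha, u', hu', e1⟩ := S.cell_cw g
      obtain ⟨v, hv, b, hb, v', hv', e2⟩ := S.cell_cw g'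
      exact ⟨v * (b * a⁻¹) * u⁻¹, mul_mem (mul_mem (U_le_P _ hv) (H_le_P _ (mem_H_of_M (e ▸ hb) ha)))
        (U_le_P _ (inv_mem hu)), u'⁻¹ * v', U_le_P _ (mul_mem (inv_mem hu') hv'), by
          rw [e2]; conv_rhs => rw [e1]
          group⟩,
    fun ⟨_, h, _, h', e⟩ => (e ▸ ((S.cell_cw g).B_mul h).mul_B h').cw_eq.symm⟩
  d_one := (Cell.of_M S.M_one').cw_eq
  d_inv g := (S.cell_cw g).inv.cw_eq
  up {_ x y} h1 h2 := (Cell.s_mul_asc (h1 ▸ S.cell_cw x) (S.cell_cw y) h2).cw_eq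
  sq {i x y} h1 h2 := (Cell.s_mul (h1 ▸ S.cell_cw x) (h2 ▸ S.cell_cw y)).imp
    (fun h => h.cw_eq.trans (S.cx.inv.sq i)) Cell.cw_eq
  thick i := let ⟨⟨x, hx⟩, h⟩ := Subgroup.ne_bot_iff_exists_ne_one.mp (S.X_ne i)
    ⟨S.nu (S.s i) * x, (S.nu (S.s i))⁻¹, ((Cell.of_M (S.M_nu _)).mul_U (S.X_le i hx)).cw_eq,
      (Cell.of_M (M_inv_s (S.M_nu _))).cw_eq,
      (conj_cell (S.M_nu _) hx fun e => h (Subtype.ext e)).cw_eq⟩

theorem br_Q (i : ι) : S.br.Q (S.s i) = Nat.card (S.X i) := by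
  have hn := S.M_nu (S.s i)
  rw [Br.Q, div_eq_iff (Nat.cast_ne_zero.mpr Nat.card_pos.ne'), ← Nat.cast_mul, ← Nat.card_prod,
    ← Fintype.card_subtype, ← Nat.card_eq_fintype_card, Nat.cast_inj]
  refine (Nat.card_eq_of_bijective (fun x : S.X i × S.B => (⟨x.1 * S.nu (S.s i) * x.2,
    (((Cell.of_M hn).U_mul (S.X_le i x.1.2)).mul_B x.2.2).cw_eq⟩ : {g // S.cw g = S.s i}))
    ⟨?_, ?_⟩).symm
  · rintro ⟨x, b⟩ ⟨x', b'⟩ e
    have e := congrArg Subtype.val e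
    simp only at e
    obtain rfl : x' = x := Subtype.ext (inv_mul_eq_one.mp (eq_one_of_desc (M_inv_s hn)
      (by rw [S.cx.inv.sq, len_one, S.cx.len_s]; omega) (mul_mem (inv_mem x'.2) x.2) (by
        rw [show _ * _ * _ = (b' : G) * (b : G)⁻¹ by
          rw [eq_mul_inv_iff_mul_eq, ← mul_right_inj ((x' : G) * S.nu (S.s i)), ← e]; group]
        exact mul_mem b'.2 (inv_mem b.2))))
    rw [show b = b' from Subtype.ext (mul_left_cancel e)]
  · rintro ⟨g, hg⟩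
    obtain ⟨u, hu, a, ha, u', hu', e⟩ := hg ▸ S.cell_cw g
    obtain ⟨y, hy, h1, x, hx, e1⟩ := S.split (M_inv_s ha) (inv_mem hu)
    refine ⟨(⟨x⁻¹, inv_mem hx⟩, ⟨(S.nu (S.s i))⁻¹ * a * (a⁻¹ * y * a⁻¹⁻¹)⁻¹ * u', mul_mem (mul_mem
      (H_le_P _ (mem_H_of_M' hn ha)) (U_le_P _ (inv_mem h1))) (U_le_P _ hu')⟩), Subtype.ext ?_⟩
    simp only [e, inv_eq_iff_eq_inv.mp e1]
    group

end SB
end Cfsg.Agent.H23
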