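import Mathlib
import Cfsg.Agent.PLocal.Maschke

/-! Coprime automorphism groups of abelian `p`-groups: indecomposable means uniserial. -/

set_option autoImplicit false

namespace Cfsg.Agent.H23.Indec

open Subgroup

variable {A : Type*} [CommGroup A] [Finite A] {p : ℕ} [hp : Fact p.Prime] {X : Subgroup (MulAut A)}

/-- invariant subgroups -/
def Inv (X : Subgroup (MulAut A)) (B : Subgroup A) : Prop := ∀ x ∈ X, ∀ b ∈ B, x b ∈ B

omit [Finite A] in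
theorem inv_iff {B : Subgroup A} : (∀ x ∈ X, B.map x.toMonoidHom = B) ↔ Inv X B := by
  refine ⟨fun h x hx b hb => h x hx ▸ ⟨b, hb, rfl⟩, fun h x hx => le_antisymm ?_ fun b hb => ?_⟩
  · rintro _ ⟨b, hb, rfl⟩
    exact h x hx b hb
  · exact ⟨x⁻¹ b, h _ (inv_mem hx) b hb, by simp⟩

omit [Finite A] in
theorem Inv.inf {B C : Subgroup A} (h : Inv X B) (h' : Inv X C) : Inv X (B ⊓ C) :=
  fun x hx b hb => ⟨h x hx b hb.1, h' x hx b hb.2⟩

omit [Finite A] in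
theorem Inv.sup {B C : Subgroup A} (h : Inv X B) (h' : Inv X C) : Inv X (B ⊔ C) := fun x hx a ha => by
  obtain ⟨b, hb, c, hc, rfl⟩ := mem_sup.1 ha
  rw [map_mul]
  exact mul_mem (mem_sup_left (h x hx b hb)) (mem_sup_right (h' x hx c hc))

omit [Finite A] in
theorem Inv.map {B : Subgroup A} (h : Inv X B) (n : ℕ) : Inv X (B.map (powMonoidHom n)) := by
  rintro x hx _ ⟨b, hb, rfl⟩
  exact ⟨x b, h x hx b hb, by simp⟩

omit [Finite A] in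
theorem Inv.comap {B : Subgroup A} (h : Inv X B) (n : ℕ) : Inv X (B.comap (powMonoidHom n)) :=
  fun x hx b hb => by simpa using h x hx _ hb

omit [Finite A] in
theorem inv_bot : Inv X ⊥ := fun x _ b hb => by rw [mem_bot.1 hb, map_one]; exact one_mem _

omit [Finite A] in
theorem inv_top : Inv X ⊤ := fun _ _ _ _ => mem_top _

theorem maschke (hX : (Nat.card X).Coprime p) {N M L : Subgroup A} (hN : Inv X N) (hM : Inv X M) (hL : Inv X L)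
    (h1 : N ≤ M) (h2 : M ≤ L) (h3 : ∀ a ∈ L, a ^ p ∈ N) :
    ∃ D : Subgroup A, Inv X D ∧ D ⊓ M = N ∧ D ⊔ M = L := by
  let r : X → L →* L := fun x => (x.1.toMonoidHom.comp L.subtype).codRestrict L fun a => hL _ x.2 _ a.2
  let V := L ⧸ N.subgroupOf L
  let q : L →* V := QuotientGroup.mk' _
  have hq : Function.Surjective q := QuotientGroup.mk'_surjective _
  letI : MulDistribMulAction X V :=
    { smul := fun x => QuotientGroup.map _ _ (r x) fun a ha => hN _ x.2 _ ha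
      one_smul := fun v => by obtain ⟨a, rfl⟩ := hq v; rfl
      mul_smul := fun x y v => by obtain ⟨a, rfl⟩ := hq v; rfl
      smul_one := fun x => map_one (QuotientGroup.map _ _ (r x) _)
      smul_mul := fun x => map_mul (QuotientGroup.map _ _ (r x) _) }
  have hV : ∀ v : V, v ^ p = 1 := fun v => by
    obtain ⟨a, rfl⟩ := hq v
    rw [← map_pow]
    exact (QuotientGroup.eq_one_iff _).2 (h3 a a.2)
  obtain ⟨k, hk⟩ := IsPGroup.exists_card_eq (p := p) (G := V) fun v => ⟨1, by simpa using hV v⟩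
  obtain ⟨W, -, w1, w2⟩ := PLocal.exists_complement_of_elementary (p := p) (V := (⊤ : Subgroup V))
    (U := (M.subgroupOf L).map q) ⟨inferInstance, fun v _ => hV v⟩ le_top
  obtain ⟨π, p1, p2⟩ := PLocal.exists_proj_of_compl (disjoint_iff.2 w1) w2
  obtain ⟨D, d1, d2, d3⟩ := PLocal.exists_invariant_ker (MulDistribMulAction.toMulAut X V)
    (hk ▸ hX.pow_right k) (U := (M.subgroupOf L).map q) (by
      rintro x _ ⟨a, ha, rfl⟩
      exact ⟨r x a, hM _ x.2 _ ha, rfl⟩) π p1 p2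
  refine ⟨(D.comap q).map L.subtype, ?_, le_antisymm ?_ (le_inf (fun a ha => ?_) h1),
    le_antisymm (sup_le (map_subtype_le _) h2) fun a ha => ?_⟩
  · rintro x hx _ ⟨a, ha, rfl⟩
    exact ⟨r ⟨x, hx⟩ a, d1 ⟨x, hx⟩ _ ha, rfl⟩
  · rintro _ ⟨⟨a, ha, rfl⟩, hm⟩
    have : q a ∈ (M.subgroupOf L).map q ⊓ D := ⟨⟨a, hm, rfl⟩, ha⟩
    rw [d2, mem_bot] at this
    exact (QuotientGroup.eq_one_iff (N := N.subgroupOf L) a).1 this
  · refine ⟨⟨a, h2 (h1 ha)⟩, ?_, rfl⟩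
    change q _ ∈ D
    rw [show q ⟨a, h2 (h1 ha)⟩ = 1 from (QuotientGroup.eq_one_iff _).2 ha]
    exact one_mem _
  · obtain ⟨_, ⟨m, hm, rfl⟩, d, hd, e⟩ := mem_sup.1 (d3 ▸ mem_top (q ⟨a, ha⟩))
    have : a = (a * (m : A)⁻¹) * m := by simp
    rw [this]
    refine mul_mem (mem_sup_left ⟨⟨a, ha⟩ * m⁻¹, ?_, rfl⟩) (mem_sup_right hm)
    change q _ ∈ D
    rw [map_mul, ← e, map_inv, mul_inv_cancel_comm]
    exact hd

omit [Finite A] hp in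
/-- climbing up: if `Ω₁` consists of `p^e`-th powers of elements of `B` -/
theorem climb {B C : Subgroup A} {e : ℕ} (h : ∀ a : A, a ^ p ∈ C → ∃ b ∈ B, a * (b ^ p ^ e)⁻¹ ∈ C) (j : ℕ)
    (hj : j ≤ e + 1) (a : A) (ha : a ^ p ^ j ∈ C) : a ∈ B ⊔ C := by
  induction j generalizing a with
  | zero => exact mem_sup_right (by simpa using ha)
  | succ j ih =>
    obtain ⟨b, hb, h1⟩ := h (a ^ p ^ j) (by rwa [← pow_mul, ← pow_succ])
    obtain ⟨k, rfl⟩ := Nat.exists_eq_add_of_le (Nat.le_of_succ_le_succ hj)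
    have h2 := ih (by omega) (a * (b ^ p ^ k)⁻¹) (by rwa [mul_pow, inv_pow, ← pow_mul, ← pow_add, add_comm k])
    exact (mul_mem_cancel_right (inv_mem (mem_sup_left (pow_mem hb _)))).1 h2

omit hp in
theorem exists_exp (hA : IsPGroup p A) (B : Subgroup A) (hB : B ≠ ⊥) :
    ∃ e, (∀ b ∈ B, b ^ p ^ (e + 1) = 1) ∧ B.map (powMonoidHom (p ^ e)) ≠ ⊥ := by
  classical
  have h0 : ∃ e, ∀ b ∈ B, b ^ p ^ e = 1 := by
    choose f hf using hA
    obtain ⟨n, hn⟩ := (Set.finite_range f).bddAbove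
    refine ⟨n, fun b _ => ?_⟩
    obtain ⟨k, rfl⟩ := Nat.exists_eq_add_of_le (hn ⟨b, rfl⟩)
    rw [pow_add, pow_mul, hf, one_pow]
  have h1 : Nat.find h0 ≠ 0 := fun e => hB (eq_bot_iff.2 fun b hb => by
    simpa [e] using Nat.find_spec h0 b hb)
  obtain ⟨e, he⟩ := Nat.exists_eq_succ_of_ne_zero h1
  refine ⟨e, by simpa [he] using Nat.find_spec h0, fun h => Nat.find_min h0 (m := e) (by omega) fun b hb => ?_⟩
  exact mem_bot.1 (h ▸ mem_map_of_mem (powMonoidHom (p ^ e)) hb)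

omit hp in
theorem omega_of_irr (hA : IsPGroup p A)
    (h : ∀ B : Subgroup A, Inv X B → (∀ b ∈ B, b ^ p = 1) → B = ⊥ ∨ ∀ a : A, a ∈ B ↔ a ^ p = 1)
    (B : Subgroup A) (hB : Inv X B) : ∃ i : ℕ, ∀ a : A, a ∈ B ↔ a ^ p ^ i = 1 := by
  by_cases h0 : B = ⊥
  · exact ⟨0, by simp [h0]⟩
  obtain ⟨e, h1, h2⟩ := exists_exp hA B h0
  have h3 := (h _ (hB.map (p ^ e)) (by
    rintro _ ⟨b, hb, rfl⟩
    rw [powMonoidHom_apply, ← pow_mul, ← pow_succ, h1 b hb])).resolve_left h2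
  refine ⟨e + 1, fun a => ⟨h1 a, fun ha => ?_⟩⟩
  simpa using climb (B := B) (C := ⊥) (e := e) (fun a ha => by
    obtain ⟨b, hb, e⟩ := (h3 a).2 ha
    exact ⟨b, hb, by simp [← e]⟩) (e + 1) le_rfl a ha

theorem irr_of_indec (hA : IsPGroup p A) (hX : (Nat.card X).Coprime p)
    (h : ¬ ∃ B C : Subgroup A, B ≠ ⊥ ∧ C ≠ ⊥ ∧ Inv X B ∧ Inv X C ∧ B ⊓ C = ⊥ ∧ B ⊔ C = ⊤)
    (B : Subgroup A) (hB : Inv X B) (hBp : ∀ b ∈ B, b ^ p = 1) : B = ⊥ ∨ ∀ a : A, a ∈ B ↔ a ^ p = 1 := by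
  refine or_iff_not_imp_left.2 fun h0 => ?_
  obtain ⟨e, h1, h2⟩ := exists_exp hA (⊤ : Subgroup A) fun e => h0 (eq_bot_iff.2 (e ▸ le_top))
  obtain ⟨U, ⟨u1, u2, u3⟩, umin⟩ := exists_minimal_of_wellFoundedLT
    (fun U : Subgroup A => Inv X U ∧ U ≠ ⊥ ∧ U ≤ map (powMonoidHom (p ^ e)) ⊤) ⟨_, inv_top.map _, h2, le_rfl⟩
  obtain ⟨H, ⟨b1, b2⟩, hmin⟩ := exists_minimal_of_wellFoundedLT
    (fun H : Subgroup A => Inv X H ∧ H.map (powMonoidHom (p ^ e)) = U)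
    ⟨_, u1.comap (p ^ e), map_comap_eq_self (by rwa [MonoidHom.range_eq_map])⟩
  have hUp : ∀ u ∈ U, u ^ p = 1 := fun u hu => by
    obtain ⟨a, -, rfl⟩ := u3 hu
    rw [powMonoidHom_apply, ← pow_mul, ← pow_succ, h1 a trivial]
  have b3 : ∀ b ∈ H, b ^ p ^ e = 1 → ∃ c ∈ H, c ^ p = b := by
    obtain ⟨D, d1, d2, d3⟩ := maschke hX (b1.map p) (b1.inf (inv_bot.comap (p ^ e))) b1
      (by
        rintro _ ⟨b, hb, rfl⟩
        refine ⟨pow_mem hb _, ?_⟩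
        change (b ^ p) ^ p ^ e = 1
        rw [← pow_mul, ← pow_succ', h1 b trivial]) inf_le_left fun a ha => ⟨a, ha, rfl⟩
    have hD : D ≤ H := d3 ▸ le_sup_left
    have hD' : H ≤ D := hmin ⟨d1, le_antisymm (b2 ▸ map_mono hD) fun u hu => by
      rw [← b2, ← d3] at hu
      obtain ⟨a, ha, rfl⟩ := hu
      obtain ⟨d, hd, m, hm, rfl⟩ := mem_sup.1 ha
      exact ⟨d, hd, by rw [map_mul, show powMonoidHom (p ^ e) m = 1 from hm.2, mul_one]⟩⟩ hD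
    intro b hb hb'
    have : b ∈ D ⊓ (H ⊓ comap (powMonoidHom (p ^ e)) ⊥) := ⟨hD' hb, hb, hb'⟩
    rwa [d2] at this
  have b4 : ∀ b ∈ H, b ^ p = 1 → ∀ k ≤ e, ∃ c ∈ H, c ^ p ^ k = b := fun b hb hb' k hk => by
    induction k with
    | zero => exact ⟨b, hb, by simp⟩
    | succ k ih =>
      obtain ⟨c, hc, rfl⟩ := ih (by omega)
      obtain ⟨l, rfl⟩ := Nat.exists_eq_add_of_le hk
      obtain ⟨d, hd, rfl⟩ := b3 c hc (by rw [pow_add, pow_succ, pow_mul, pow_mul, hb', one_pow])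
      exact ⟨d, hd, by rw [← pow_mul, pow_succ']⟩
  obtain ⟨C, ⟨c1, c2⟩, cmax⟩ := exists_maximal_of_wellFoundedGT
    (fun C : Subgroup A => Inv X C ∧ H ⊓ C = ⊥) ⟨⊥, inv_bot, inf_bot_eq _⟩
  have c3 : ∀ a : A, a ^ p ∈ C → ∃ b ∈ H, a * (b ^ p ^ e)⁻¹ ∈ C := by
    have hC : C ≤ C.comap (powMonoidHom p) := fun c hc => pow_mem hc _
    obtain ⟨D, d1, d2, d3⟩ := maschke hX c1 ((b1.sup c1).inf (c1.comap p)) (c1.comap p)
      (le_inf le_sup_right hC) inf_le_right fun a ha => ha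
    have hD : D ≤ C := cmax ⟨d1, eq_bot_iff.2 fun a ha => c2 ▸ ⟨ha.1, by
      rw [SetLike.mem_coe, ← d2]; exact ⟨ha.2, mem_sup_left ha.1, d3 ▸ mem_sup_left ha.2⟩⟩⟩ (d2 ▸ inf_le_left)
    intro a ha
    have h4 : a ∈ H ⊔ C := by
      have : a ∈ D ⊔ (H ⊔ C) ⊓ C.comap (powMonoidHom p) := by rw [d3]; exact ha
      exact sup_le (hD.trans le_sup_right) inf_le_left this
    obtain ⟨b, hb, c, hc, rfl⟩ := mem_sup.1 h4
    rw [mul_pow] at ha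
    have h5 : b ^ p ∈ H ⊓ C := ⟨pow_mem hb _, (mul_mem_cancel_right (pow_mem hc _)).1 ha⟩
    obtain ⟨d, hd, rfl⟩ := b4 b hb (mem_bot.1 (c2 ▸ h5)) e le_rfl
    exact ⟨d, hd, by rwa [mul_inv_cancel_comm]⟩
  have c4 : H ⊔ C = ⊤ := eq_top_iff.2 fun a _ => climb c3 (e + 1) le_rfl a (h1 a trivial ▸ one_mem _)
  have c5 : C = ⊥ := by_contra fun hc => h ⟨H, C, fun e => u2 (by rw [← b2, e, Subgroup.map_bot]), hc, b1, c1, c2, c4⟩
  rw [c5, sup_bot_eq] at c4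
  have u4 : ∀ a : A, a ^ p = 1 → a ∈ U := fun a ha => by
    obtain ⟨c, hc, rfl⟩ := b4 a (c4 ▸ mem_top a) ha e le_rfl
    exact b2 ▸ ⟨c, hc, rfl⟩
  have u5 : B ≤ U := fun b hb => u4 b (hBp b hb)
  exact fun a => ⟨hBp a, fun ha => umin ⟨hB, h0, u5.trans u3⟩ u5 (u4 a ha)⟩

omit [Finite A] hp in
theorem indec_of_omega (h : ∀ B : Subgroup A, Inv X B → ∃ i : ℕ, ∀ a : A, a ∈ B ↔ a ^ p ^ i = 1) :
    ¬ ∃ B C : Subgroup A, B ≠ ⊥ ∧ C ≠ ⊥ ∧ Inv X B ∧ Inv X C ∧ B ⊓ C = ⊥ ∧ B ⊔ C = ⊤ := by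
  rintro ⟨B, C, h1, h2, h3, h4, h5, -⟩
  obtain ⟨i, hi⟩ := h B h3
  obtain ⟨j, hj⟩ := h C h4
  rcases le_total i j with e | e <;> obtain ⟨k, rfl⟩ := Nat.exists_eq_add_of_le e
  · exact h1 (h5 ▸ (inf_eq_left.2 fun a ha => (hj a).2 (by rw [pow_add, pow_mul, (hi a).1 ha, one_pow])).symm)
  · exact h2 (h5 ▸ (inf_eq_right.2 fun a ha => (hi a).2 (by rw [pow_add, pow_mul, (hj a).1 ha, one_pow])).symm)

omit [Finite A] hp in
theorem irr_of_omega (h : ∀ B : Subgroup A, Inv X B → ∃ i : ℕ, ∀ a : A, a ∈ B ↔ a ^ p ^ i = 1)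
    (B : Subgroup A) (hB : Inv X B) (hBp : ∀ b ∈ B, b ^ p = 1) : B = ⊥ ∨ ∀ a : A, a ∈ B ↔ a ^ p = 1 := by
  obtain ⟨i, hi⟩ := h B hB
  cases i with
  | zero => exact Or.inl (eq_bot_iff.2 fun a ha => by simpa using (hi a).1 ha)
  | succ i => exact Or.inr fun a => ⟨hBp a, fun ha => (hi a).2 (by rw [pow_succ', pow_mul, ha, one_pow])⟩

end Cfsg.Agent.H23.Indec
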