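import Mathlib
import Cfsg.Prelude.Def_Transfer
import Cfsg.Agent.Core.Basic
import Cfsg.Agent.Core.MinNormal
import Cfsg.Agent.Char.Central

set_option autoImplicit false

namespace Cfsg.Agent.H23.Ord123

open Subgroup

variable {G : Type*} [Group G]

theorem no_six (hp : ∀ g : G, g ^ 2 = 1 ∨ g ^ 3 = 1) {a b : G} (ha : a ^ 2 = 1) (ha1 : a ≠ 1)
    (hb : b ^ 3 = 1) (hb1 : b ≠ 1) (hc : a * b = b * a) : False := by
  have hc' : Commute a b := hc
  rcases hp (a * b) with h | h
  · rw [hc'.mul_pow, ha, one_mul] at h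
    apply hb1
    have : b ^ 3 = b ^ 2 * b := pow_succ b 2
    rw [hb, h, one_mul] at this
    exact this.symm
  · rw [hc'.mul_pow, hb, mul_one] at h
    apply ha1
    have : a ^ 3 = a ^ 2 * a := pow_succ a 2
    rw [ha, h, one_mul] at this
    exact this.symm

theorem eq_one_of_two_three {a : G} (h2 : a ^ 2 = 1) (h3 : a ^ 3 = 1) : a = 1 := by
  have : a ^ 3 = a ^ 2 * a := pow_succ a 2
  rw [h2, h3, one_mul] at this
  exact this.symm

theorem mem_of_two_three {H : Subgroup G} {a : G} (h2 : a ^ 2 ∈ H) (h3 : a ^ 3 ∈ H) : a ∈ H := by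
  have : a = (a ^ 2)⁻¹ * a ^ 3 := by group
  rw [this]; exact H.mul_mem (H.inv_mem h2) h3

theorem comm_aux {M : Type*} [CommGroup M] (n a b c d e f : M) (r1 : n * a * b = 1)
    (r2 : n * c * d = 1) (r3 : n * e * f = 1) (r4 : a * c * f = 1) (r5 : b * e * d = 1) :
    n ^ 3 = 1 := by
  have h : (n * a * b) * (n * c * d) * (n * e * f) = n ^ 3 * (a * c * f) * (b * e * d) := by
    simp only [pow_succ, pow_zero, one_mul, mul_one, mul_comm, mul_left_comm, mul_assoc]
  rw [r1, r2, r3, r4, r5] at h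
  simpa using h.symm

theorem pow_mem_of_mul (N : Subgroup G) [hN : N.Normal] {g n : G} (hn : n ∈ N) {k : ℕ}
    (h : (g * n) ^ k = 1) : g ^ k ∈ N := by
  rw [← QuotientGroup.eq_one_iff] at hn ⊢
  have := congrArg (QuotientGroup.mk' N) h
  simp only [map_pow, map_mul, map_one, QuotientGroup.mk'_apply, hn, mul_one] at this
  simpa using this

theorem case_two [Finite G] (hp : ∀ g : G, g ^ 2 = 1 ∨ g ^ 3 = 1) (x0 : G) (hx0 : x0 ^ 2 ≠ 1)
    (N : Subgroup G) [hN : N.Normal] (hne : N ≠ ⊥) (he : IsElementaryAbelian 2 N) :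
    ∃ M : Subgroup G, M.Normal ∧ IsElementaryAbelian 2 M ∧ M.index = 3 := by
  obtain ⟨n0, hn0, hn01⟩ := (Subgroup.bot_or_exists_ne_one N).resolve_left hne
  set C := centralizer (N : Set G) with hC
  have hNC : N ≤ C := fun a ha => by
    rw [hC, mem_centralizer_iff]; intro b hb
    exact Core.comm_of_isMulCommutative he.1 hb ha
  have h2C : ∀ g : G, g ^ 2 = 1 → g ∈ C := by
    intro g hg
    rw [hC, mem_centralizer_iff]
    intro n hn
    rcases hp (g * n) with h | h
    · have hn2 := he.2 n hn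
      have e1 : g⁻¹ = g := by rw [inv_eq_iff_mul_eq_one, ← pow_two, hg]
      have e2 : n⁻¹ = n := by rw [inv_eq_iff_mul_eq_one, ← pow_two, hn2]
      have e3 : (g * n)⁻¹ = g * n := by rw [inv_eq_iff_mul_eq_one, ← pow_two, h]
      rw [mul_inv_rev, e1, e2] at e3
      exact e3
    · have h3 := pow_mem_of_mul N hn h
      have : g ∈ N := mem_of_two_three (by rw [hg]; exact N.one_mem) h3
      exact Core.comm_of_isMulCommutative he.1 hn this
  have hC2 : ∀ c ∈ C, c ^ 2 = 1 := by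
    intro c hc
    by_contra hc2
    have hc3 := (hp c).resolve_left hc2
    have hc1 : c ≠ 1 := by rintro rfl; simp at hc2
    exact no_six hp (he.2 n0 hn0) hn01 hc3 hc1 (mem_centralizer_iff.1 hc n0 hn0)
  have hCn : C.Normal := inferInstance
  refine ⟨C, hCn, ⟨Core.isMulCommutative_of_forall fun a ha b hb => ?_, hC2⟩, ?_⟩
  · have e1 : a⁻¹ = a := by rw [inv_eq_iff_mul_eq_one, ← pow_two, hC2 a ha]
    have e2 : b⁻¹ = b := by rw [inv_eq_iff_mul_eq_one, ← pow_two, hC2 b hb]
    have e3 : (a * b)⁻¹ = a * b := by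
      rw [inv_eq_iff_mul_eq_one, ← pow_two, hC2 _ (C.mul_mem ha hb)]
    rw [mul_inv_rev, e1, e2] at e3
    exact e3.symm
  haveI : Fact (Nat.Prime 3) := ⟨Nat.prime_three⟩
  have hq : IsPGroup 3 (G ⧸ C) := by
    intro q
    obtain ⟨g, rfl⟩ := QuotientGroup.mk_surjective q
    refine ⟨1, ?_⟩
    rcases hp g with h | h
    · rw [(QuotientGroup.eq_one_iff g).2 (h2C g h), one_pow]
    · rw [pow_one, ← QuotientGroup.mk_pow, h, QuotientGroup.mk_one]
  obtain ⟨k, hk⟩ := IsPGroup.iff_card.1 hq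
  have hk' : C.index = 3 ^ k := by rw [← hk]; rfl
  rcases k with _ | _ | k
  · exfalso
    rw [pow_zero, index_eq_one] at hk'
    exact hx0 (hC2 x0 (hk' ▸ mem_top x0))
  · simpa using hk'
  exfalso
  have hdvd : 3 ^ 2 ∣ Nat.card G := by
    refine Dvd.dvd.trans ?_ C.index_dvd_card
    rw [hk']; exact pow_dvd_pow 3 (by omega)
  obtain ⟨A, hA⟩ := Sylow.exists_subgroup_card_pow_prime 3 hdvd
  have hApg : IsPGroup 3 A := IsPGroup.of_card hA
  have hAc : ∀ a ∈ A, ∀ b ∈ A, a * b = b * a := by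
    intro a ha b hb
    have := (IsPGroup.commGroupOfCardEqPrimeSq (p := 3) (G := A) hA).mul_comm ⟨a, ha⟩ ⟨b, hb⟩
    exact congrArg Subtype.val this
  have hA3 : ∀ a ∈ A, a ^ 3 = 1 := by
    intro a ha
    rcases hp a with h | h
    · have h9 : a ^ 9 = 1 := by
        have := pow_card_eq_one' (x := (⟨a, ha⟩ : A))
        rw [hA] at this
        simpa using congrArg Subtype.val this
      have : a = 1 := by
        have e : a ^ 9 = (a ^ 2) ^ 4 * a := by group
        rw [h9, h, one_pow, one_mul] at e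
        exact e.symm
      rw [this, one_pow]
    · exact h
  have hAC : ∀ a ∈ A, a ∈ C → a = 1 := fun a ha hc => eq_one_of_two_three (hC2 a hc) (hA3 a ha)
  have hAne : A ≠ ⊥ := by rintro rfl; simp at hA
  obtain ⟨x, hx, hx1⟩ := (Subgroup.bot_or_exists_ne_one A).resolve_left hAne
  have hy : ∃ y ∈ A, y ∉ zpowers x := by
    by_contra hcon
    push Not at hcon
    have hle : A ≤ zpowers x := hcon
    have := Subgroup.card_le_of_le hle
    rw [hA, Nat.card_zpowers, orderOf_eq_prime (hA3 x hx) hx1] at this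
    omega
  obtain ⟨y, hy, hyx⟩ := hy
  have rel : ∀ g ∈ A, g ≠ 1 → ∀ n ∈ N, n * (g * n * g⁻¹) * (g ^ 2 * n * (g ^ 2)⁻¹) = 1 := by
    intro g hg hg1 n hn
    have h3 : (n * g) ^ 3 = 1 := by
      refine (hp _).resolve_left fun h => hg1 (hAC g hg ?_)
      have := h2C _ h
      exact (C.mul_mem_cancel_left (hNC hn)).1 this
    have e : (n * g) ^ 3 = n * (g * n * g⁻¹) * (g ^ 2 * n * (g ^ 2)⁻¹) * g ^ 3 := by
      simp only [pow_succ, pow_zero, one_mul]; group
    rw [e, hA3 g hg, mul_one] at h3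
    exact h3
  have hy1 : y ≠ 1 := by rintro rfl; exact hyx (one_mem _)
  have hxy1 : x * y ≠ 1 := by
    intro h; apply hyx
    rw [eq_inv_of_mul_eq_one_right h]; exact inv_mem (mem_zpowers x)
  have hxy2 : x * y ^ 2 ≠ 1 := by
    intro h; apply hyx
    have e : y = x := by
      have e1 : y * y ^ 2 = 1 := by rw [← pow_succ', hA3 y hy]
      rw [← e1] at h
      exact (mul_right_cancel h).symm
    rw [e]; exact mem_zpowers x
  have hxy : Commute x y := hAc x hx y hy
  letI : CommGroup N := { (inferInstance : Group N) with mul_comm := he.1.1.1 }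
  let f : G → N := fun g => ⟨g * n0 * g⁻¹, hN.conj_mem n0 hn0 g⟩
  have r1 : f 1 * f y * f (y ^ 2) = 1 := by
    apply Subtype.ext
    simpa [f] using rel y hy hy1 n0 hn0
  have r2 : f 1 * f (x * y) * f (x ^ 2 * y ^ 2) = 1 := by
    apply Subtype.ext
    have := rel _ (A.mul_mem hx hy) hxy1 n0 hn0
    rw [hxy.mul_pow] at this
    simpa [f] using this
  have r3 : f 1 * f (x * y ^ 2) * f (x ^ 2 * y) = 1 := by
    apply Subtype.ext
    have := rel _ (A.mul_mem hx (A.pow_mem hy 2)) hxy2 n0 hn0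
    have e : (y ^ 2) ^ 2 = y := by
      have : (y ^ 2) ^ 2 = y ^ 3 * y := by group
      rw [this, hA3 y hy, one_mul]
    rw [(hxy.pow_right 2).mul_pow, e] at this
    simpa [f] using this
  have r4 : ∀ z : G, f z * f (x * z) * f (x ^ 2 * z) = 1 := by
    intro z
    apply Subtype.ext
    have := rel x hx hx1 _ (hN.conj_mem n0 hn0 z)
    simp only [f, Subgroup.coe_mul, OneMemClass.coe_one]
    rw [← this]; group
  have hfin : f 1 ^ 3 = 1 := comm_aux _ _ _ _ _ _ _ r1 r2 r3 (r4 _) (r4 _)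
  have : n0 ^ 3 = 1 := by simpa [f] using congrArg Subtype.val hfin
  exact hn01 (eq_one_of_two_three (he.2 n0 hn0) this)

theorem case_three (hp : ∀ g : G, g ^ 2 = 1 ∨ g ^ 3 = 1) (t : G) (ht3 : t ^ 3 ≠ 1)
    (N : Subgroup G) [hN : N.Normal] (hne : N ≠ ⊥) (he : IsElementaryAbelian 3 N) :
    ∃ M : Subgroup G, M.Normal ∧ IsElementaryAbelian 3 M ∧ M.index = 2 := by
  obtain ⟨n0, hn0, hn01⟩ := (Subgroup.bot_or_exists_ne_one N).resolve_left hne
  set C := centralizer (N : Set G) with hC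
  have inv : ∀ s : G, s ^ 3 ≠ 1 → ∀ n ∈ N, s * n * s⁻¹ = n⁻¹ := by
    intro s hs n hn
    have hs2 := (hp s).resolve_right hs
    rcases hp (s * n) with h | h
    · have e1 : s⁻¹ = s := by rw [inv_eq_iff_mul_eq_one, ← pow_two, hs2]
      rw [e1, eq_inv_iff_mul_eq_one, ← h, pow_two]; group
    · exfalso
      have h3 := pow_mem_of_mul N hn h
      have : s ∈ N := mem_of_two_three (by rw [hs2]; exact N.one_mem) h3
      exact hs (he.2 s this)
  have hne0 : n0⁻¹ ≠ n0 := by
    intro h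
    apply hn01
    refine eq_one_of_two_three ?_ (he.2 n0 hn0)
    rw [pow_two]; nth_rewrite 1 [← h]; exact inv_mul_cancel n0
  have hC3 : ∀ c ∈ C, c ^ 3 = 1 := by
    intro c hc
    by_contra h
    apply hne0
    rw [← inv c h n0 hn0, ← mem_centralizer_iff.1 hc n0 hn0]; group
  have h3C : ∀ x : G, x ^ 3 = 1 → x ∈ C := by
    intro x hx
    have step : ∀ n ∈ N, (t * x) * n * (t * x)⁻¹ = x * n⁻¹ * x⁻¹ := by
      intro n hn
      have := inv t ht3 _ (hN.conj_mem n hn x)
      calc (t * x) * n * (t * x)⁻¹ = t * (x * n * x⁻¹) * t⁻¹ := by group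
        _ = _ := by rw [this]; group
    rcases hp (t * x) with h | h
    · refine mem_of_two_three ?_ (by rw [hx]; exact C.one_mem)
      rw [hC, mem_centralizer_iff]
      intro n hn
      have e : (t * x) ^ 2 * n * ((t * x) ^ 2)⁻¹ = x ^ 2 * n * (x ^ 2)⁻¹ := by
        calc (t * x) ^ 2 * n * ((t * x) ^ 2)⁻¹
            = (t * x) * ((t * x) * n * (t * x)⁻¹) * (t * x)⁻¹ := by
              simp only [pow_two]; group
          _ = _ := by
              rw [step n hn, step _ (hN.conj_mem _ (N.inv_mem hn) x)]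
              simp only [pow_two]; group
      rw [h] at e
      have e' : n = x ^ 2 * n * (x ^ 2)⁻¹ := by simpa using e
      calc n * x ^ 2 = (x ^ 2 * n * (x ^ 2)⁻¹) * x ^ 2 := by rw [← e']
        _ = _ := by group
    · exfalso
      apply hne0
      have e : (t * x) ^ 3 * n0 * ((t * x) ^ 3)⁻¹ = x ^ 3 * n0⁻¹ * (x ^ 3)⁻¹ := by
        calc (t * x) ^ 3 * n0 * ((t * x) ^ 3)⁻¹
            = (t * x) * ((t * x) * ((t * x) * n0 * (t * x)⁻¹) * (t * x)⁻¹) * (t * x)⁻¹ := by
              simp only [pow_succ, pow_zero, one_mul]; group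
          _ = _ := by
              rw [step n0 hn0, step _ (hN.conj_mem _ (N.inv_mem hn0) x),
                step _ (hN.conj_mem _ (N.inv_mem (hN.conj_mem _ (N.inv_mem hn0) x)) x)]
              simp only [pow_succ, pow_zero, one_mul, mul_inv_rev, inv_inv, mul_assoc]
      rw [h, hx] at e
      simpa using e.symm
  have hCn : C.Normal := inferInstance
  refine ⟨C, hCn, ⟨Core.isMulCommutative_of_forall fun a ha b hb => ?_, hC3⟩, ?_⟩
  · have key : ∀ c ∈ C, t * c * t⁻¹ = c⁻¹ := by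
      intro c hc
      have ht2 := (hp t).resolve_right ht3
      have h2 : (t * c) ^ 2 = 1 := by
        refine (hp _).resolve_right fun h => ht3 (hC3 t ?_)
        exact (C.mul_mem_cancel_right hc).1 (h3C _ h)
      have e1 : t⁻¹ = t := by rw [inv_eq_iff_mul_eq_one, ← pow_two, ht2]
      rw [e1, eq_inv_iff_mul_eq_one, ← h2, pow_two]; group
    have e := key _ (C.mul_mem ha hb)
    have e2 : t * (a * b) * t⁻¹ = (t * a * t⁻¹) * (t * b * t⁻¹) := by group
    rw [e2, key a ha, key b hb, ← mul_inv_rev] at e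
    exact (inv_injective e).symm
  rw [index_eq_two_iff]
  refine ⟨t, fun b => ?_⟩
  by_cases hb : b ^ 3 = 1
  · refine Or.inr ⟨h3C b hb, fun h => ht3 (hC3 t ?_)⟩
    exact (C.mul_mem_cancel_left (h3C b hb)).1 h
  · refine Or.inl ⟨?_, fun h => hb (hC3 b h)⟩
    rw [hC, mem_centralizer_iff]
    intro n hn
    have e : (b * t) * n * (b * t)⁻¹ = n := by
      calc (b * t) * n * (b * t)⁻¹ = b * (t * n * t⁻¹) * b⁻¹ := by group
        _ = n := by rw [inv t ht3 n hn, inv b hb _ (N.inv_mem hn), inv_inv]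
    calc n * (b * t) = ((b * t) * n * (b * t)⁻¹) * (b * t) := by rw [e]
      _ = _ := by group

theorem main [Finite G] (h : Set.range (orderOf : G → ℕ) = {k : ℕ | 1 ≤ k ∧ k ≤ 3}) :
    (∃ N : Subgroup G, N.Normal ∧ Cfsg.IsElementaryAbelian 3 N ∧ N.index = 2) ∨
      (∃ N : Subgroup G, N.Normal ∧ Cfsg.IsElementaryAbelian 2 N ∧ N.index = 3) := by
  have ho : ∀ g : G, 1 ≤ orderOf g ∧ orderOf g ≤ 3 := fun g => by
    have : orderOf g ∈ Set.range (orderOf : G → ℕ) := ⟨g, rfl⟩
    rw [h] at this; exact this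
  have hp : ∀ g : G, g ^ 2 = 1 ∨ g ^ 3 = 1 := by
    intro g
    have := ho g
    have h' : orderOf g = 1 ∨ orderOf g = 2 ∨ orderOf g = 3 := by omega
    rcases h' with h' | h' | h'
    · left; rw [orderOf_eq_one_iff.1 h', one_pow]
    · left; rw [← h', pow_orderOf_eq_one]
    · right; rw [← h', pow_orderOf_eq_one]
  obtain ⟨t, ht⟩ : (2 : ℕ) ∈ Set.range (orderOf : G → ℕ) := by rw [h]; simp
  obtain ⟨x, hx⟩ : (3 : ℕ) ∈ Set.range (orderOf : G → ℕ) := by rw [h]; simp
  have ht3 : t ^ 3 ≠ 1 := fun e => by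
    have := orderOf_dvd_of_pow_eq_one e
    rw [ht] at this; omega
  have hx2 : x ^ 2 ≠ 1 := fun e => by
    have := orderOf_dvd_of_pow_eq_one e
    rw [hx] at this; omega
  have hpr : ∀ r : ℕ, r.Prime → (∃ g : G, orderOf g = r) → r = 2 ∨ r = 3 := by
    rintro r hr ⟨g, hg⟩
    have := ho g
    have := hr.two_le
    omega
  haveI : Group.IsSolvable G := Char.burnside_of_primes Nat.prime_two Nat.prime_three
    fun r hr hd => by
      haveI := Fact.mk hr
      exact hpr r hr (exists_prime_orderOf_dvd_card' r hd)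
  have hT : (⊤ : Subgroup G) ≠ ⊥ := by
    intro e
    have : t = 1 := by simpa using (e ▸ mem_top t : t ∈ (⊥ : Subgroup G))
    rw [this] at ht3; simp at ht3
  obtain ⟨N, p, hN, hne, -, hpp, he, -⟩ :=
    Core.exists_minimal_normal_elementary_le (⊤ : Subgroup G) inferInstance hT
  obtain ⟨n0, hn0, hn01⟩ := (Subgroup.bot_or_exists_ne_one N).resolve_left hne
  haveI := Fact.mk hpp
  rcases hpr p hpp ⟨n0, orderOf_eq_prime (he.2 n0 hn0) hn01⟩ with rfl | rfl
  · exact Or.inr (case_two hp x hx2 N hne he)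
  · exact Or.inl (case_three hp t ht3 N hne he)

end Cfsg.Agent.H23.Ord123
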