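import Mathlib
import Cfsg.Agent.H23.PL2

/-!
# Cyclic normal subgroups of Sylow subgroups of `p`-soluble groups
-/

set_option autoImplicit false

namespace Cfsg.Agent.H23.HH

open Module Cfsg.Agent.BG Cfsg.Agent.BG.Amb Cfsg.Agent.BG.RepGlue Cfsg.Agent.BG.RepWeight
  Cfsg.Agent.BG.RepFrob
open Subgroup (zpowers)
open Cfsg.Agent.Transfer (IsSectionOf)
open scoped commutatorElement

universe u

section Cyc

variable {p : ℕ} [hp : Fact p.Prime] {G : Type*} [Group G] [Finite G]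

/-- The elements `g` with `⁅g, V⁆ ≤ U`. -/
def commInto (V U : Subgroup G) [V.Normal] : Subgroup G where
  carrier := {g | ∀ v ∈ V, ⁅g, v⁆ ∈ U}
  one_mem' := fun v _ => by simp
  mul_mem' := fun {a b} ha hb v hv => by
    have := U.mul_mem (ha _ (Subgroup.Normal.conj_mem inferInstance v hv b)) (hb v hv)
    convert this using 1
    simp only [commutatorElement_def]; group
  inv_mem' := fun {a} ha v hv => by
    have := U.inv_mem (ha _ (Subgroup.Normal.conj_mem inferInstance v hv a⁻¹))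
    convert this using 1
    simp only [commutatorElement_def]; group

omit hp in
theorem le_cent_of_card_two {W T : Subgroup G} (hW : Nat.card W = 2) (hT : T ≤ 𝐍(W)) :
    W ≤ 𝐂(T) := by
  obtain ⟨w, -, hw⟩ := (Nat.card_eq_two_iff' (1 : W)).1 hW
  intro v hv t ht
  by_cases h1 : v = 1
  · simp [h1]
  have h2 := hw ⟨_, (Subgroup.mem_normalizer_iff.1 (hT ht) v).1 hv⟩
    (fun e => h1 (by simpa using congrArg Subtype.val e))
  rw [← hw ⟨v, hv⟩ (fun e => h1 (congrArg Subtype.val e))] at h2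
  exact mul_inv_eq_iff_eq_mul.1 (congrArg Subtype.val h2)

theorem Red.s4 (h : Red 2 G) {a : G} (ha : a ∉ pCore 2 G) (ha2 : a ^ 2 ∈ pCore 2 G)
    (hn : ∀ v ∈ pCore 2 G, ⁅a, v⁆ ∈ zpowers (a ^ 2)) : IsSectionOf G (Equiv.Perm (Fin 4)) := by
  set V := pCore 2 G
  let f := QuotientGroup.mk' V
  have hf : Function.Surjective f := QuotientGroup.mk'_surjective V
  have hker : ∀ g, f g = 1 ↔ g ∈ V := fun g => QuotientGroup.eq_one_iff g
  have hVc := isMulCommutative_iff_le_centralizer.1 h.ea.1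
  have hfa : f a ^ 2 = 1 := by rw [← map_pow, hker]; exact ha2
  have hC := cent_pPrimeCore_le (Core.IsPSolvable.quotient h.ps V) (Core.pCore_quotient_pCore 2)
  have hodd := Core.pPrimeCore_coprime (G := G ⧸ V) 2
  obtain ⟨c, hc, hac⟩ : ∃ c ∈ pPrimeCore 2 (G ⧸ V), ⁅f a, c⁆ ≠ 1 := by
    by_contra! hc
    have h1 := hC fun c hc' => (commutatorElement_eq_one_iff_mul_comm.1 (hc c hc')).symm
    refine ha ((hker a).1 (orderOf_eq_one_iff.1 (Nat.eq_one_of_dvd_coprimes hodd
      (Subgroup.orderOf_dvd_natCard _ h1) (orderOf_dvd_of_pow_eq_one hfa))))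
  obtain ⟨c, rfl⟩ := hf c
  have h1 : f ⁅a, c⁆ ∈ pPrimeCore 2 (G ⧸ V) := by
    rw [map_commutatorElement]
    exact Subgroup.commutator_le_right ⊤ _
      (Subgroup.commutator_mem_commutator (Subgroup.mem_top _) hc)
  obtain ⟨j, hj⟩ := Transfer.exists_pow_coprime_order (p := 2) (orderOf_pos ⁅a, c⁆).ne'
  set t := ⁅a, c⁆ ^ 2 ^ j with ht
  have hinv : f a * f t * (f a)⁻¹ = (f t)⁻¹ := by
    rw [ht, map_pow, ← conj_pow, ← inv_pow, map_commutatorElement]
    congr 1
    have e : (f a)⁻¹ = f a := by rw [inv_eq_iff_mul_eq_one, ← sq, hfa]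
    simp only [commutatorElement_def, mul_inv_rev, inv_inv, e]
    rw [← mul_assoc, ← mul_assoc, ← mul_assoc, ← sq, hfa]
    group
  have htV : t ∉ V := fun e => hac (by
    rw [← hker, ht, map_pow] at e
    rw [← map_commutatorElement]
    exact orderOf_eq_one_iff.1 (Nat.eq_one_of_dvd_coprimes (hodd.pow_right j)
      (Subgroup.orderOf_dvd_natCard _ h1) (orderOf_dvd_of_pow_eq_one e)))
  obtain ⟨m, hm⟩ := (Core.pCore_isPGroup (G := G) 2).exists_card_eq
  have hcop : (Nat.card (zpowers t)).Coprime (Nat.card V) := by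
    rw [hm, Nat.card_zpowers]; exact hj.pow_right m
  obtain ⟨b, hb, hba⟩ : f a ∈ (𝐍(zpowers t)).map f := by
    rw [← Core.normalizer_map_of_coprime_ker hf _ (by rwa [QuotientGroup.ker_mk'])
      (Or.inl inferInstance), MonoidHom.map_zpowers]
    exact PGrp.mem_normalizer_zpowers_of_conj_eq (k := -1) (by rw [hinv, zpow_neg_one])
  have hTV : zpowers t ⊓ V = ⊥ := Subgroup.inf_eq_bot_of_coprime hcop
  have hbt : b * t * b⁻¹ = t⁻¹ := by
    have : b * t * b⁻¹ * t ∈ zpowers t ⊓ V := ⟨Subgroup.mul_mem _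
      ((Subgroup.mem_normalizer_iff.1 hb t).1 (Subgroup.mem_zpowers t)) (Subgroup.mem_zpowers t),
      (hker _).1 (by rw [map_mul, map_mul, map_mul, map_inv, hba, hinv, inv_mul_cancel])⟩
    rw [hTV] at this
    exact eq_inv_of_mul_eq_one_left this
  have hWV : ⁅V, zpowers t⁆ ≤ V := Subgroup.commutator_le_left _ _
  have hWC : ⁅V, zpowers t⁆ ⊓ 𝐂(zpowers t) = ⊥ :=
    coprime_abelian_comm_inf_cent h.ea.1 Subgroup.le_normalizer_of_normal hcop.symm
  have hW1 : ⁅V, zpowers t⁆ ≠ ⊥ := fun e =>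
    htV (h.cent (le_cent_iff_comm_eq_bot'.2 e (Subgroup.mem_zpowers t)))
  have hnc : ¬ ⁅V, zpowers t⁆ ≤ 𝐂(zpowers t) := fun e => hW1 (by rw [← hWC, inf_eq_left.2 e])
  have hN : 𝐍(zpowers t) ≤ 𝐍(⁅V, zpowers t⁆) :=
    le_norm_comm Subgroup.le_normalizer_of_normal le_rfl
  refine Transfer.isSectionOf_perm_four hN ?_ ?_ fun e => hnc (le_cent_symm ?_)
  · have hc2 : c * a ^ 2 * c⁻¹ ∈ V := Subgroup.Normal.conj_mem inferInstance _ ha2 c
    have h2 : ∀ x ∈ V, Nat.card (zpowers x) ∣ 2 := fun x hx => by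
      rw [Nat.card_zpowers]; exact orderOf_dvd_of_pow_eq_one (h.ea.2 x hx)
    have h3 : ⁅V, zpowers t⁆ ≤ zpowers (a ^ 2) ⊔ zpowers (c * a ^ 2 * c⁻¹) := by
      have h4 : t ∈ commInto V (zpowers (a ^ 2) ⊔ zpowers (c * a ^ 2 * c⁻¹)) := by
        refine Subgroup.pow_mem _ ?_ _
        rw [commutatorElement_def, show a * c * a⁻¹ * c⁻¹ = a * (c * a * c⁻¹)⁻¹ by group]
        refine Subgroup.mul_mem _ (fun v hv => Subgroup.mem_sup_left (hn v hv))
          (Subgroup.inv_mem _ fun v hv => Subgroup.mem_sup_right ?_)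
        obtain ⟨i, hi⟩ := hn _ (Subgroup.Normal.conj_mem inferInstance v hv c⁻¹)
        refine ⟨i, ?_⟩
        dsimp only at hi ⊢
        rw [conj_zpow, hi]
        simp only [commutatorElement_def]; group
      rw [Subgroup.commutator_comm, Subgroup.commutator_le]
      exact fun g hg v hv => Subgroup.zpowers_le.2 h4 hg v hv
    have h4 := (Subgroup.card_dvd_of_le h3).trans ((Core.card_sup_dvd
      ((Subgroup.zpowers_le.2 (Subgroup.centralizer_le (Subgroup.zpowers_le.2 ha2)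
        (hVc hc2))).trans (Subgroup.centralizer_le_normalizer _))).trans
      (Nat.mul_dvd_mul (h2 _ ha2) (h2 _ hc2)))
    have h5 : Nat.card ↥⁅V, zpowers t⁆ ≠ 1 := fun e => hW1 (Subgroup.card_eq_one.1 e)
    have h6 : Nat.card ↥⁅V, zpowers t⁆ ≠ 2 := fun e =>
      hnc (le_cent_of_card_two e (Subgroup.le_normalizer.trans hN))
    have h7 := Nat.le_of_dvd (by norm_num) h4
    generalize Nat.card ↥⁅V, zpowers t⁆ = x at *
    interval_cases x <;> simp_all
  · rw [eq_bot_iff, ← hWC]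
    refine le_inf inf_le_left (le_cent_iff_comm_eq_bot.2 (eq_bot_iff.2 ?_))
    rw [← hTV]
    exact le_inf (comm_le_right inf_le_right)
      ((Subgroup.commutator_mono (inf_le_left.trans hWV) le_rfl).trans hWV)
  · refine Subgroup.zpowers_le.2 (Transfer.mem_of_sq_mem_of_odd hj ?_)
    have := Subgroup.inv_mem _ (e (Subgroup.commutator_mem_commutator hb
      (Subgroup.le_normalizer (Subgroup.mem_zpowers t))))
    rwa [commutatorElement_def, hbt, ← mul_inv_rev, inv_inv, ← sq] at this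

theorem Red.cyc (h : Red p G) {a : G} (hn : pCore p G ≤ 𝐍(zpowers a))
    (h2 : p ≠ 2 ∨ ¬ IsSectionOf G (Equiv.Perm (Fin 4))) : a ∈ pCore p G := by
  by_contra ha
  obtain ⟨n, ρ, ι, hl, hf⟩ := h.exists_lin
  set V := pCore p G
  set f := QuotientGroup.mk' V
  have hker : ∀ g, f g = 1 ↔ g ∈ V := fun g => QuotientGroup.eq_one_iff g
  have h1 : ∀ v ∈ V, ⁅a, v⁆ ∈ zpowers a := fun v hv =>
    comm_le_left hn (Subgroup.commutator_mem_commutator (Subgroup.mem_zpowers a) hv)
  have h3 : (ρ (f a) - 1) ^ 2 = 0 := hl.span _ fun v hv => by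
    obtain ⟨i, hi⟩ := h1 v hv
    rw [sq, Module.End.mul_apply, ← hl.comm a hv, ← hl.comm a (hl.comm_mem a hv), ← hi,
      commutatorElement_eq_one_iff_mul_comm.2 (Commute.self_zpow a i), hl.one]
  have h4 : f a ^ p = 1 := hf _ (by
    have := sub_one_pow_char (p := p) (ρ (f a)) 1
    rw [pow_one, pow_eq_zero_of_le hp.out.two_le h3] at this
    rw [map_pow, ← sub_eq_zero, ← this])
  have h5 : orderOf (f a) = p := orderOf_eq_prime h4 fun e => ha ((hker a).1 e)
  have hap : a ^ p ∈ V := (hker _).1 (by rw [map_pow, h4])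
  have h6 : ∀ v ∈ V, ⁅a, v⁆ ∈ zpowers (a ^ p) := fun v hv => by
    obtain ⟨i, hi⟩ := h1 v hv
    have h7 := (hker _).2 (hl.comm_mem a hv)
    dsimp only at hi
    rw [← hi, map_zpow, ← orderOf_dvd_iff_zpow_eq_one, h5] at h7
    obtain ⟨c, rfl⟩ := h7
    exact ⟨c, by rw [← hi, zpow_mul, zpow_natCast]⟩
  rcases eq_or_ne p 2 with rfl | hp2
  · exact h2.resolve_left (fun e => e rfl) (h.s4 ha hap h6)
  have hp3 : 3 ≤ p := by have := hp.out.two_le; omega
  have hY : zpowers (f a ^ p ^ (1 - 1)) = zpowers (f a) := by simp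
  obtain ⟨q, hq, hqp, Q, -, hQ, hm⟩ := exists_minAct_pSolvable (Core.IsPSolvable.quotient h.ps V)
    (Core.pCore_quotient_pCore p) (T := zpowers (f a)) (Y := zpowers (f a))
    (isPGroup_zpowers_iff.2 ⟨1, by rwa [pow_one]⟩) le_rfl Subgroup.le_normalizer
    (by rw [Ne, Subgroup.zpowers_eq_bot]; exact fun e => ha ((hker a).1 e))
  have hk := cast_card_ne_zero (k := AlgebraicClosure (ZMod p)) hq hqp hQ
  obtain ⟨l, -, -, -, hl1, -⟩ := MinAct.hh (ρ := ρ) (n := 1) (by rw [h5, pow_one]) le_rfl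
    (hY.symm ▸ hm) (Subgroup.mem_zpowers _) hk (by
      obtain ⟨g, hg, hg1⟩ := (Q.bot_or_exists_ne_one).resolve_left hm.ne_bot
      exact ⟨g, hg, fun e => hg1 (hf g e)⟩) h3 (by rw [pow_one]; omega)
  obtain ⟨z, hz, hz1⟩ := (⁅Q, Q⁆.bot_or_exists_ne_one).resolve_left fun e => hl1 (e ▸ bot_le)
  have hzD := hm.der_le hz
  let K : Subgroup (G ⧸ V) :=
    { carrier := {g | (ρ z - 1) * ρ g = ρ z - 1}
      one_mem' := by simp
      mul_mem' := fun {a b} ha hb => by
        rw [Set.mem_setOf_eq, map_mul, ← mul_assoc, ha, hb]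
      inv_mem' := fun {a} ha => by
        rw [Set.mem_setOf_eq] at ha ⊢
        conv_lhs => rw [← ha]
        rw [mul_assoc, ← map_mul, mul_inv_cancel, map_one, mul_one] }
  have haK : f a ∈ K := by
    obtain ⟨y, rfl⟩ := QuotientGroup.mk'_surjective V z
    have h7 : y * a * y⁻¹ * a⁻¹ ∈ V := (hker _).1 (by
      have e : f a * f y = f y * f a := hzD.2 _ (Subgroup.mem_zpowers (f a))
      rw [map_mul, map_mul, map_mul, map_inv, map_inv, ← e]
      group)
    have h8 := hl.mul_pow' h7 hap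
    have hN := sum_pow_char (p := p) (ρ (f a)) 1
    rw [pow_one, pow_eq_zero_of_le (by omega) h3] at hN
    rw [hN, inv_mul_cancel_right, conj_pow, hl.conj y _ hap, LinearMap.zero_apply, zero_add] at h8
    change _ * _ = _
    rw [← sub_eq_zero, ← mul_sub_one]
    refine hl.span _ fun v hv => ?_
    obtain ⟨i, hi⟩ := h6 v hv
    dsimp only at hi
    rw [Module.End.mul_apply, ← hl.comm a hv, ← hi, hl.zpow hap, map_smul, LinearMap.sub_apply, h8,
      Module.End.one_apply, sub_self, smul_zero]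
  have hQK : Q ≤ K := by
    rw [← hm.comm_eq, Subgroup.commutator_le]
    intro g hg y hy
    have hy' : y ∈ K := Subgroup.zpowers_le.2 haK hy
    refine K.mul_mem ?_ (K.inv_mem hy')
    have hc : (ρ z - 1) * ρ g = ρ g * (ρ z - 1) := by
      rw [sub_mul, mul_sub, ← map_mul, ← map_mul, hm.D_le_cent hzD g hg, one_mul, mul_one]
    change _ * _ = _
    rw [map_mul, map_mul, ← mul_assoc, ← mul_assoc, hc, mul_assoc (ρ g), hy', ← hc, mul_assoc,
      ← map_mul, mul_inv_cancel, map_one, mul_one]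
  refine hz1 (hf z (LinearMap.ext fun v => eq_of_sq_eq_zero hk
    (congrArg Subtype.val (pow_card_eq_one' (x := (⟨z, hzD.1⟩ : Q)))) ?_))
  have := LinearMap.congr_fun (hQK hzD.1) v
  simp only [Module.End.mul_apply, LinearMap.sub_apply, Module.End.one_apply] at this
  rw [map_sub, this]

end Cyc

end Cfsg.Agent.H23.HH
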