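import Mathlib
import Cfsg.Agent.H23.PL4

/-!
# Relations between the `p`-lengths and the derived length
-/

set_option autoImplicit false

namespace Cfsg.Agent.H23.HH

open Cfsg.Agent.BG Cfsg.Agent.BG.Amb

universe u

variable {p : ℕ} [hp : Fact p.Prime]

theorem plength_ext {G : Type*} [Group G] [Finite G] (N : Subgroup G) [N.Normal] {j k : ℕ}
    (hN : PLengthLE p j N) (hQ : PLengthLE p k (G ⧸ N)) : PLengthLE p (j + k) G := by
  have h1 : N ≤ (upperPSeries p G (2 * j + 1)).1 := by
    have := Core.map_subtype_upper_le p N (2 * j + 1)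
    rwa [show (upperPSeries p N (2 * j + 1)).1 = ⊤ from hN, ← MonoidHom.range_eq_map,
      Subgroup.range_subtype] at this
  refine Core.PLengthLE.of_quotient_le_upper (upperPSeries p G (2 * j)).1 le_rfl
    (Core.PLengthLE.of_quotient_pPrime _ (Core.pPrimeCore_coprime p) ?_)
  let f := (QuotientGroup.mk' (pPrimeCore p (G ⧸ (upperPSeries p G (2 * j)).1))).comp
    (QuotientGroup.mk' (upperPSeries p G (2 * j)).1)
  have hf : Function.Surjective f :=
    (QuotientGroup.mk'_surjective _).comp (QuotientGroup.mk'_surjective _)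
  have hk : N ≤ f.ker := by
    rw [← MonoidHom.comap_ker, QuotientGroup.ker_mk', ← Core.upper_succ_even p (even_two_mul j)]
    exact h1
  exact Core.PLengthLE.of_surjective hQ (f := QuotientGroup.lift N f hk)
    (QuotientGroup.lift_surjective_of_surjective N f hf hk)

theorem plength_mul {q : ℕ} [hq : Fact q.Prime] (hqp : q ≠ p) (L : ℕ)
    (C : ∀ (G : Type u) [Group G], Prop)
    (hsub : ∀ (G : Type u) [Group G] [Finite G] (H : Subgroup G), C G → C H)
    (hquo : ∀ (G : Type u) [Group G] [Finite G] (N : Subgroup G) [N.Normal], C G → C (G ⧸ N))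
    (h : ∀ (G : Type u) [Group G] [Finite G], C G → (Nat.card G).Coprime q → PLengthLE p L G)
    (m : ℕ) : ∀ (G : Type u) [Group G] [Finite G], C G → PLengthLE q m G →
      PLengthLE p ((1 + m) * L) G := by
  induction m with
  | zero =>
    intro G _ _ hC hG
    rw [add_zero, one_mul]
    exact h G hC (Core.pLengthLE_zero_iff.1 hG)
  | succ m ih =>
    intro G _ _ hC hG
    rw [show (1 + (m + 1)) * L = L + (1 + m) * L by ring]
    refine plength_ext (pPrimePCore q G) ?_
      (ih _ (hquo G _ hC) (Core.pLengthLE_succ_iff.1 hG))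
    refine Core.PLengthLE.of_normal_index ((pPrimeCore q G).subgroupOf _) ?_
      (Core.PLengthLE.of_mulEquiv (h _ (hsub G _ hC) (Core.pPrimeCore_coprime q))
        (Subgroup.subgroupOfEquivOfLe (Core.pPrimeCore_le_pPrimePCore q)).symm)
    obtain ⟨n, hn⟩ := Core.relIndex_pPrimePCore (G := G) q
    rw [show Subgroup.index _ = q ^ n from hn]
    exact fun e => hqp ((Nat.prime_dvd_prime_iff_eq hp.out hq.out).1
      (hp.out.dvd_of_dvd_pow e)).symm

theorem plength_prod {ι : Type*} (q l : ι → ℕ) (hq : ∀ i, (q i).Prime ∧ q i ≠ p) (s : Finset ι) :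
    ∀ (G : Type u) [Group G] [Finite G],
      (∀ t : ℕ, t.Prime → t ∣ Nat.card G → t ≠ p → ∃ i ∈ s, q i = t) →
      (∀ i ∈ s, PLengthLE (q i) (l i) G) → PLengthLE p (∏ i ∈ s, (1 + l i)) G := by
  classical
  induction s using Finset.induction_on with
  | empty =>
    intro G _ _ h _
    refine Core.pLengthLE_one_of_isPGroup ?_
    obtain ⟨m, hm⟩ := Core.eq_pow_of_pi_singleton (p := p) (Nat.card_pos (α := G)).ne'
      fun t ht htd => by
        by_contra e
        simpa using h t ht htd e
    exact IsPGroup.of_card hm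
  | insert i s hi ih =>
    intro G _ _ h hl
    have := Fact.mk (hq i).1
    rw [Finset.prod_insert hi]
    refine plength_mul (hq i).2 _ (fun G _ =>
      (∀ t : ℕ, t.Prime → t ∣ Nat.card G → t ≠ p → ∃ j ∈ insert i s, q j = t) ∧
      (∀ j ∈ s, PLengthLE (q j) (l j) G)) ?_ ?_ ?_ (l i) G
      ⟨h, fun j hj => hl j (Finset.mem_insert_of_mem hj)⟩ (hl i (Finset.mem_insert_self i s))
    · rintro G _ _ H ⟨h1, h2⟩
      refine ⟨fun t ht htd => h1 t ht (htd.trans H.card_subgroup_dvd_card), fun j hj => ?_⟩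
      have := Fact.mk (hq j).1
      exact Core.PLengthLE.subgroup (h2 j hj) H
    · rintro G _ _ N _ ⟨h1, h2⟩
      refine ⟨fun t ht htd => h1 t ht (htd.trans N.card_quotient_dvd_card), fun j hj => ?_⟩
      have := Fact.mk (hq j).1
      exact Core.PLengthLE.quotient (h2 j hj) N
    · rintro G _ _ ⟨h1, h2⟩ hc
      refine ih G (fun t ht htd htp => ?_) h2
      obtain ⟨j, hj, rfl⟩ := h1 t ht htd htp
      refine ⟨j, (Finset.mem_insert.1 hj).resolve_left ?_, rfl⟩
      rintro rfl
      exact ht.one_lt.ne' (Nat.Coprime.eq_one_of_dvd hc.symm htd)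

omit hp in
theorem der_le_sum {ι : Type*} [Fintype ι] (q d : ι → ℕ) (hq : ∀ i, (q i).Prime) (n : ℕ) :
    ∀ (G : Type u) [Group G] [Finite G], Nat.card G = n → Group.IsSolvable G → ∀ l : ι → ℕ,
      (∀ t : ℕ, t.Prime → t ∣ Nat.card G → ∃ i, q i = t) → (∀ i, PDer (q i) (d i) G) →
      (∀ i, PLengthLE (q i) (l i) G) → dser (⊤ : Subgroup G) (∑ i, d i * l i) = ⊥ := by
  classical
  induction n using Nat.strong_induction_on with | _ n ih =>
  intro G _ _ hn hs l hc hd hl
  have key : ∀ (N : Subgroup G) [N.Normal], N ≠ ⊥ → ∀ l' : ι → ℕ,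
      (∀ i, PLengthLE (q i) (l' i) (G ⧸ N)) → dser (⊤ : Subgroup G) (∑ i, d i * l' i) ≤ N := by
    intro N _ hN l' hl'
    refine dser_le_of_map ?_
    rw [Subgroup.map_top_of_surjective _ (QuotientGroup.mk'_surjective N)]
    refine ih _ (hn ▸ Core.card_quotient_lt N hN) _ rfl inferInstance l'
      (fun t ht htd => hc t ht (htd.trans N.card_quotient_dvd_card)) (fun i => ?_) hl'
    have := Fact.mk (hq i)
    exact (hd i).of_surj (QuotientGroup.mk'_surjective N)
  have key' : ∀ (N : Subgroup G) [N.Normal], N ≠ ⊥ →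
      dser (⊤ : Subgroup G) (∑ i, d i * l i) ≤ N := fun N _ hN => key N hN l fun i => by
    have := Fact.mk (hq i)
    exact Core.PLengthLE.quotient (hl i) N
  by_contra hne
  obtain ⟨p, hp, hO⟩ : ∃ p : ℕ, p.Prime ∧ pCore p G ≠ ⊥ := by
    have : Nontrivial G := by
      by_contra h
      rw [not_nontrivial_iff_subsingleton] at h
      exact hne (Subsingleton.elim _ _)
    obtain ⟨N, hNn, hN1, -, hmin⟩ := Core.exists_minimal_normal_le (⊤ : Subgroup G) top_ne_bot
    obtain ⟨p, hp, hN⟩ := Core.minimal_normal_elementary N inferInstance hN1 hmin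
    have := Fact.mk hp
    exact ⟨p, hp, fun e => hN1 (eq_bot_iff.2 (e ▸ Core.le_pCore hNn
      (Core.IsElementaryAbelian.isPGroup hN)))⟩
  have := Fact.mk hp
  have hpd : p ∣ Nat.card G := (Core.prime_dvd_card_of_isPGroup (Core.pCore_isPGroup p) hO).trans
    (Subgroup.card_subgroup_dvd_card _)
  obtain ⟨i, rfl⟩ := hc p hp hpd
  have h1 : pPrimeCore (q i) G = ⊥ := by
    by_contra h
    exact hne (eq_bot_iff.2 ((le_inf (key' _ hO) (key' _ h)).trans
      (Subgroup.inf_eq_bot_of_coprime (by
        obtain ⟨m, hm⟩ := (Core.pCore_isPGroup (G := G) (q i)).exists_card_eq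
        rw [hm]
        exact (Core.pPrimeCore_coprime (q i)).symm.pow_left m)).le))
  obtain ⟨m, hm⟩ : ∃ m, l i = m + 1 := by
    refine Nat.exists_eq_succ_of_ne_zero fun e => ?_
    have := hl i
    rw [e, Core.pLengthLE_zero_iff] at this
    exact hp.one_lt.ne' (Nat.Coprime.eq_one_of_dvd this.symm hpd)
  have h2 := Core.pPrimePCore_eq_pCore h1
  have h3 := key (pPrimePCore (q i) G) (h2 ▸ hO) (Function.update l i m) fun j => by
    rcases eq_or_ne j i with rfl | hj
    · rw [Function.update_self]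
      exact Core.pLengthLE_succ_iff.1 (hm ▸ hl j)
    · have := Fact.mk (hq j)
      rw [Function.update_of_ne hj]
      exact Core.PLengthLE.quotient (hl j) _
  have h4 : ∑ j, d j * l j = d i + ∑ j, d j * Function.update l i m j := by
    rw [← Finset.add_sum_erase _ _ (Finset.mem_univ i),
      ← Finset.add_sum_erase _ _ (Finset.mem_univ i), Function.update_self, hm,
      Finset.sum_congr rfl (g := fun j => d j * Function.update l i m j) fun j hj => by
        rw [Function.update_of_ne (Finset.ne_of_mem_erase hj)]]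
    ring
  rw [h4, dser_add] at hne
  exact hne (hd i _ ((Core.pCore_isPGroup _).to_le (h2 ▸ h3)))

end Cfsg.Agent.H23.HH
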