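import Mathlib
import Cfsg.Agent.Char.Central
import Cfsg.Agent.Char.Constit
import Cfsg.Agent.Char.Kernel

/-! Linear groups of prime degree `p` and order divisible by `p²`. -/

set_option autoImplicit false

namespace Cfsg.Agent.H23.PrimeDeg

open Subgroup Cfsg.Agent.Char

theorem main {G : Type*} [Group G] [Finite G] {p : ℕ} (hp : p.Prime) {χ : G → ℂ} (hχ : IsIrrCharacter G χ)
    (hdeg : χ 1 = p) (hf : ∀ g : G, χ g = χ 1 → g = 1) (hdiv : p ^ 2 ∣ Nat.card G) : center G ≠ ⊥ := by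
  classical
  intro hZ
  haveI : Fact p.Prime := ⟨hp⟩
  obtain ⟨P⟩ : Nonempty (Sylow p G) := inferInstance
  haveI := Fintype.ofFinite (P : Subgroup G)
  have hc := isIrr_isChar hχ
  have hk : charKer χ = ⊥ := eq_bot_iff.2 fun g hg => hf g ((mem_charKer_iff hc).1 hg)
  have h1 : ∀ z : (P : Subgroup G), z ∈ center P → z ≠ 1 → χ z = 0 := fun z hz h1 => by
    refine (isIrr_eq_zero_or_norm_eq_of_coprime hχ z hdeg ((Nat.Prime.coprime_iff_not_dvd hp).2 fun h => ?_)).resolve_right
      fun h => h1 (Subtype.ext (mem_bot.1 ?_))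
    · refine P.not_dvd_index (h.trans (index_dvd_of_le fun x hx => ?_))
      exact mem_centralizer_singleton_iff.2 (congrArg Subtype.val (mem_center_iff.1 hz ⟨x, hx⟩))
    · rw [← hZ, ← charCenter_eq_center hχ hk]
      exact (mem_charCenter_iff hc).2 h
  have hP2 : p ^ 2 ∣ Nat.card P := P.pow_dvd_card_of_pow_dvd_card hdiv
  have hr := isChar_res (P : Subgroup G) hc
  by_cases h2 : ∃ ψ, IsIrrCharacter P ψ ∧ classInner (fun x : P => χ x) ψ ≠ 0 ∧ ψ 1 ≠ 1
  · obtain ⟨ψ, h3, h4, h5⟩ := h2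
    obtain ⟨n, -, h6, h7⟩ := isIrr_degree' h3
    obtain ⟨k, hk⟩ := P.isPGroup'.exists_card_eq
    obtain ⟨j, -, rfl⟩ := (Nat.dvd_prime_pow hp).1 (hk ▸ h6)
    have h8 : j ≠ 0 := by rintro rfl; exact h5 (by simpa using h7)
    have h9 := Constit.eq_of_inner_ne_zero_of_degree hr h3 h4 hdeg h7 (Nat.le_self_pow h8 p)
    haveI : Nontrivial P := Finite.one_lt_card_iff_nontrivial.1
      (lt_of_lt_of_le (Nat.one_lt_pow two_ne_zero hp.one_lt) (Nat.le_of_dvd Nat.card_pos hP2))
    haveI := P.isPGroup'.center_nontrivial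
    obtain ⟨z, hz⟩ := exists_ne (1 : center P)
    have := (mem_charCenter_iff hr).1 (h9 ▸ center_le_charCenter h3 z.2)
    rw [h1 z z.2 fun e => hz (Subtype.ext e), norm_zero, eq_comm, norm_eq_zero] at this
    exact isIrr_one_ne_zero hχ this
  push Not at h2
  have h3 : ∀ z : (P : Subgroup G), z ∈ center P := fun z => mem_center_iff.2 fun g => by
    rw [← commutatorElement_eq_one_iff_mul_comm]
    refine Subtype.ext (hf _ ((mem_charKer_iff hr).1 (mem_charKer_of_forall_constituent (isChar_classFun hr)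
      fun ψ h4 h5 => commutator_le_charKer (isIrr_isChar h4) (h2 ψ h4 h5) ?_)))
    exact commutator_mem_commutator (mem_top _) (mem_top _)
  obtain ⟨m, hm⟩ := classInner_isChar_nat hr isChar_one
  rw [classInner_one_right, Finset.sum_eq_single (1 : (P : Subgroup G)) (fun z _ hz => h1 z (h3 z) hz) (by simp), inv_mul_eq_iff_eq_mul₀ card_ne_zero,
    OneMemClass.coe_one, hdeg] at hm
  have h4 : Nat.card P ∣ p := ⟨m, by exact_mod_cast hm⟩
  exact absurd (Nat.le_of_dvd hp.pos (hP2.trans h4)) (not_le.2 (by nlinarith [hp.one_lt]))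

end Cfsg.Agent.H23.PrimeDeg
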