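import Mathlib
import Cfsg.Agent.H23.RankLow
import Cfsg.Agent.PGrp.Class

/-! 2-groups of class two and exponent four whose involutions form a subgroup. -/

set_option autoImplicit false

namespace Cfsg.Agent.H23.RankLow

open Subgroup
open scoped commutatorElement

variable {G : Type*} [Group G] [Finite G]

theorem exists_compl_two {F N : Subgroup G} (hF : commutator G ≤ F) (hsq : ∀ x : G, x ^ 2 ∈ F) (hN : F ≤ N) :
    ∃ H : Subgroup G, H ⊓ N = F ∧ H ⊔ N = ⊤ := by
  obtain ⟨H, hH, hmax⟩ := exists_maximal_of_wellFoundedGT (fun H : Subgroup G => H ⊓ N = F)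
    ⟨F, inf_eq_left.2 hN⟩
  have hFH : F ≤ H := hH ▸ inf_le_left
  haveI : H.Normal := PGrp.normal_of_commutator_le hFH ((commutator_mono le_top le_rfl).trans hF)
  refine ⟨H, hH, eq_top_iff.2 fun x _ => by_contra fun hx => hx (mem_sup_left ?_)⟩
  refine hmax (y := H ⊔ zpowers x) (le_antisymm ?_ (le_inf (hFH.trans le_sup_left) hN)) le_sup_left
    (mem_sup_right (mem_zpowers x))
  rintro y ⟨h1, h2⟩
  obtain ⟨a, ha, k, rfl⟩ := (PGrp.mem_sup_zpowers_nat (by simp [normalizer_eq_top])).1 h1
  obtain ⟨j, rfl | rfl⟩ := Nat.even_or_odd' k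
  · exact hH ▸ ⟨mul_mem ha (hFH (by rw [mul_comm, pow_mul]; exact hsq _)), h2⟩
  · refine absurd ?_ hx
    have : x = (a * (x ^ j) ^ 2)⁻¹ * (a * x ^ (2 * j + 1)) := by rw [← pow_mul, mul_comm j, pow_succ]; group
    rw [this]
    exact mul_mem (inv_mem (mem_sup_left (mul_mem ha (hFH (hsq _))))) (mem_sup_right h2)

theorem index_le_sq {Z E : Subgroup G} (hZ : Z ≤ E) (hE : E ≤ center G) (hE2 : ∀ x, x ∈ E ↔ x ^ 2 = 1)
    {H : Subgroup G} (hH : E ≤ H) (hsq : ∀ x ∈ H, x ^ 2 ∈ Z) : E.relIndex H ≤ Nat.card Z ^ 2 := by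
  by_contra! hc
  obtain ⟨x, hx, hx2⟩ := exists_invol (G := H) (Z := Z.subgroupOf H) (E := E.subgroupOf H) (fun _ h => hZ h)
    (fun e he => mem_center_iff.2 fun g => Subtype.ext (mem_center_iff.1 (hE he) g))
    (fun e he => Subtype.ext ((hE2 e).1 he)) (fun x => hsq x x.2) (by
      rwa [Nat.card_congr (subgroupOfEquivOfLe (hZ.trans hH)).toEquiv])
  exact hx ((hE2 _).2 (congrArg Subtype.val hx2))

theorem special_of (hG : IsPGroup 2 G) (hZ : frattini G ≤ center G) (h2 : ∀ x, x ∈ frattini G ↔ x ^ 2 = 1)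
    (hi : Nat.card (frattini G) ^ 2 ≤ (frattini G).index) : IsSpecial 2 G := by
  have hsq := PGrp.pow_mem_frattini hG
  have hpos : 0 < Nat.card (frattini G) := Nat.card_pos
  have h1 : frattini G = center G := by
    refine le_antisymm hZ fun z hz => by_contra fun hzF => ?_
    have hz2 : z ^ 2 ≠ 1 := fun e => hzF ((h2 z).2 e)
    have hz4 : (z ^ 2) ^ 2 = 1 := (h2 _).1 (hsq z)
    haveI : (zpowers z).Normal := PGrp.normal_of_le_center (zpowers_le.2 hz)
    let π := QuotientGroup.mk' (zpowers z)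
    have ho : Nat.card (zpowers z) = 4 := by
      rw [Nat.card_zpowers]
      exact orderOf_eq_prime_pow (p := 2) (n := 1) (by simpa using hz2) (by rw [← hz4, ← pow_mul]; rfl)
    have hc1 : Nat.card ↥(frattini G ⊔ zpowers z) = Nat.card (frattini G) * 2 :=
      PGrp.card_sup_zpowers Nat.prime_two (by simp [normalizer_eq_top]) (hsq z) hzF
    have hc2 := PGrp.card_comap_mk' (zpowers z) ((frattini G).map π)
    rw [comap_map_eq, QuotientGroup.ker_mk', hc1, ho] at hc2
    have hc3 : ((frattini G).map π).index * 2 = (frattini G).index := by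
      rw [index_map, QuotientGroup.ker_mk', QuotientGroup.range_mk', index_top, mul_one]
      have e1 := (frattini G ⊔ zpowers z).card_mul_index
      rw [hc1, ← (frattini G).card_mul_index, mul_assoc] at e1
      rw [mul_comm]
      exact Nat.eq_of_mul_eq_mul_left hpos e1
    obtain ⟨x, hx, hx2⟩ := exists_invol (G := G ⧸ zpowers z) (Z := (frattini G).map π) le_rfl
      (by
        rintro _ ⟨a, ha, rfl⟩
        refine mem_center_iff.2 fun g => ?_
        obtain ⟨g, rfl⟩ := QuotientGroup.mk'_surjective _ g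
        rw [← map_mul, ← map_mul, mem_center_iff.1 (hZ ha) g])
      (by
        rintro _ ⟨a, ha, rfl⟩
        rw [← map_pow, (h2 a).1 ha, map_one])
      (fun g => by
        obtain ⟨g, rfl⟩ := QuotientGroup.mk'_surjective _ g
        exact ⟨_, hsq g, map_pow _ _ _⟩)
      (by
        have : 0 < Nat.card ((frattini G).map π) := Nat.card_pos
        nlinarith)
    obtain ⟨x, rfl⟩ := QuotientGroup.mk'_surjective _ x
    rw [← map_pow, QuotientGroup.mk'_apply, QuotientGroup.eq_one_iff] at hx2
    obtain ⟨k, hk⟩ := (Submonoid.mem_powers_iff _ _).1 (mem_powers_iff_mem_zpowers.2 hx2)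
    obtain ⟨j, rfl | rfl⟩ := Nat.even_or_odd' k
    · refine hx ⟨x * z ^ j, (h2 _).2 ?_, ?_⟩
      · rw [Commute.mul_pow (mem_center_iff.1 (pow_mem hz j) x), ← hk, ← pow_mul, mul_comm j, ← pow_add,
          ← two_mul, mul_left_comm, ← mul_assoc, mul_assoc, mul_left_comm 2 2, ← mul_assoc 2 2, pow_mul, pow_mul, hz4,
          one_pow]
      · rw [map_mul, mul_eq_left, QuotientGroup.mk'_apply, QuotientGroup.eq_one_iff]
        exact pow_mem (mem_zpowers z) j
    · have := hsq x
      rw [← hk, pow_succ, mul_comm 2, pow_mul] at this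
      exact hzF ((mul_mem_cancel_left (hsq _)).1 this)
  refine ⟨hG, h1, h1 ▸ le_antisymm (PGrp.commutator_le_frattini hG) (by_contra fun hc => ?_)⟩
  obtain ⟨M, hM1, hM2, hM3, -⟩ := PGrp.exists_relIndex_prime_ge (hG.to_subgroup (frattini G))
    (lt_of_le_not_ge (PGrp.commutator_le_frattini hG) hc)
  have hcm : ∀ x y : G, (x * y) ^ 2 = x ^ 2 * y ^ 2 * ⁅y, x⁆ := fun x y => by
    have := PGrp.commute_of_commutator_le_center ((PGrp.commutator_le_frattini hG).trans hZ)
    simpa using PGrp.mul_pow_of_commute (this y x x) (this y x y) 2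
  have hcM : ∀ x y : G, ⁅x, y⁆ ∈ M := fun x y => hM1 (commutator_mem_commutator (mem_top x) (mem_top y))
  let H : Subgroup G := { carrier := {x | x ^ 2 ∈ M}
                          one_mem' := by simpa using one_mem M
                          mul_mem' := fun {a b} ha hb => by
                            change (a * b) ^ 2 ∈ M
                            rw [hcm]; exact mul_mem (mul_mem ha hb) (hcM _ _)
                          inv_mem' := fun {a} ha => by simpa using ha }
  have hFH : frattini G ≤ H := fun x hx => show x ^ 2 ∈ M from (h2 x).1 hx ▸ one_mem _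
  have hH : H.index ≤ 2 := by
    by_cases ht : H = ⊤
    · simp [ht]
    obtain ⟨a, ha⟩ : ∃ a, a ∉ H := by simpa [eq_top_iff'] using ht
    refine (index_eq_two_iff.2 ⟨a, fun b => ?_⟩).le
    have key : b * a ∈ H ↔ b ∉ H := by
      change (b * a) ^ 2 ∈ M ↔ ¬ b ^ 2 ∈ M
      rw [hcm, mul_mem_cancel_right (hcM _ _)]
      refine (mul_mem_iff_of_index_two hM3 (a := ⟨_, hsq b⟩) (b := ⟨_, hsq a⟩)).trans ?_
      exact iff_false_right ha
    by_cases hb : b ∈ H
    · exact Or.inr ⟨hb, fun h => key.1 h hb⟩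
    · exact Or.inl ⟨key.2 hb, hb⟩
  have h3 := index_le_sq hM2 hZ h2 hFH fun x hx => hx
  have h4 := relIndex_mul_index hFH
  have h5 := PGrp.card_eq_card_mul_relIndex hM2
  rw [hM3] at h5
  have : 0 < Nat.card M := Nat.card_pos
  have h6 : (frattini G).index ≤ Nat.card M ^ 2 * 2 := h4 ▸ Nat.mul_le_mul h3 hH
  rw [h5] at hi
  nlinarith

theorem cube_bound (hG : IsPGroup 2 G) (hcl : (⊤ : Subgroup G).lowerCentralSeries 2 = ⊥) (h1 : ∀ x : G, x ^ 4 = 1)
    (hN : ∀ x y : G, x ^ 2 = 1 → y ^ 2 = 1 → (x * y) ^ 2 = 1) :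
    Nat.card G ≤ Nat.card {x : G // x ^ 2 = 1} ^ 3 ∧
      (¬ IsSpecial 2 G → Nat.card G < Nat.card {x : G // x ^ 2 = 1} ^ 3) := by
  haveI := hG.isNilpotent
  have hcm := PGrp.commute_of_commutator_le_center
    (commutator_le_center (Subgroup.lowerCentralSeries_eq_bot_iff_nilpotencyClass_le.1 hcl))
  have h2 : ∀ x y : G, ⁅x, y⁆ ^ 2 = 1 := fun x y => by
    have := PGrp.mul_pow_of_commute (hcm x y y) (hcm x y x) 4
    rw [h1, h1, h1, one_mul, one_mul, show Nat.choose 4 2 = 4 + 2 from rfl, pow_add, h1, one_mul] at this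
    exact this.symm
  let N : Subgroup G := { carrier := {z | z ^ 2 = 1}
                          one_mem' := one_pow _
                          mul_mem' := fun {a b} ha hb => hN a b ha hb
                          inv_mem' := fun {a} ha => by simpa using ha }
  have hW : frattini G ≤ center G ⊓ N := (PGrp.frattini_le_iff hG).2
    ⟨commutator_le.2 fun x _ y _ => ⟨mem_center_iff.2 fun g => hcm x y g, h2 x y⟩, fun x =>
      ⟨mem_center_iff.2 fun g => by
        rw [← commutatorElement_eq_one_iff_mul_comm, PGrp.commutator_pow_right_of_commute (hcm _ _ _), h2],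
        show (x ^ 2) ^ 2 = 1 by rw [← pow_mul]; exact h1 x⟩⟩
  have hZ : frattini G ≤ center G := hW.trans inf_le_left
  have hFN : frattini G ≤ N := hW.trans inf_le_right
  change Nat.card G ≤ Nat.card N ^ 3 ∧ (_ → Nat.card G < Nat.card N ^ 3)
  obtain ⟨H, h3, h4⟩ := exists_compl_two (PGrp.commutator_le_frattini hG) (PGrp.pow_mem_frattini hG) hFN
  have hFH : frattini G ≤ H := h3 ▸ inf_le_left
  haveI : H.Normal := PGrp.normal_of_commutator_le hFH
    ((commutator_mono le_top le_rfl).trans (PGrp.commutator_le_frattini hG))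
  have h5 := PGrp.card_sup_mul_card_inf (N := H) (H := N) (by simp [normalizer_eq_top])
  rw [h3, h4, card_top, PGrp.card_eq_card_mul_relIndex hFH, mul_comm, mul_assoc] at h5
  have h6 := Nat.eq_of_mul_eq_mul_left Nat.card_pos h5
  have h7 : (frattini G).relIndex H ≤ Nat.card (frattini G) ^ 2 := by
    have := index_le_sq (G := H) (Z := (frattini G).subgroupOf H) le_rfl
      (fun e he => mem_center_iff.2 fun g => Subtype.ext (mem_center_iff.1 (hZ he) g))
      (fun x => ⟨fun h => Subtype.ext (hFN h), fun h => by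
        rw [mem_subgroupOf, ← h3]; exact ⟨x.2, congrArg Subtype.val h⟩⟩) le_top
      fun x _ => PGrp.pow_mem_frattini hG (x : G)
    rwa [relIndex_top_right, Nat.card_congr (subgroupOfEquivOfLe hFH).toEquiv] at this
  have h8 : Nat.card G ≤ Nat.card (frattini G) ^ 2 * Nat.card N := h6 ▸ Nat.mul_le_mul_right _ h7
  have h9 : Nat.card (frattini G) ≤ Nat.card N := card_le_of_le hFN
  have hp : 0 < Nat.card N := Nat.card_pos
  refine ⟨h8.trans ((Nat.mul_le_mul_right _ (Nat.pow_le_pow_left h9 2)).trans_eq (pow_succ _ 2).symm), fun hs => ?_⟩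
  by_contra! hc
  have h10 : Nat.card N ≤ Nat.card (frattini G) := by
    have := hc.trans h8
    rw [pow_succ] at this
    exact (Nat.pow_le_pow_iff_left two_ne_zero).1 (Nat.le_of_mul_le_mul_right this hp)
  have e := PGrp.eq_of_le_of_card_le hFN h10
  refine hs (special_of hG hZ (fun x => by rw [e]; rfl) ?_)
  rw [← (frattini G).card_mul_index, ← e, pow_succ'] at hc
  exact Nat.le_of_mul_le_mul_left hc Nat.card_pos

end Cfsg.Agent.H23.RankLow
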