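import Mathlib
import Cfsg.Agent.Chev.All2
import Cfsg.Agent.Chev.StBN
import Cfsg.Agent.Chev.Bridge

/-! Weyl group orbits on roots; generation by the monomial subgroup and few root subgroups. -/

set_option autoImplicit false
set_option linter.unusedSectionVars false
set_option maxRecDepth 100000

namespace Cfsg.Agent.H23
open Cfsg.Lie Cfsg.Agent.Chev

section
variable {D : ChevalleyDatum} [g : Good D]

theorem isLong_iff (r : Rt D) :
    D.isLong r = true ↔ ∃ s : Rt D, s ≠ r ∧ s ≠ ng r ∧ 2 ≤ (pr s r).natAbs := by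
  simp only [ChevalleyDatum.isLong, List.any_eq_true, List.mem_range, Bool.and_eq_true, bne_iff_ne,
    decide_eq_true_eq, ← ng_val]
  exact ⟨fun ⟨s, hs, ⟨h1, h2⟩, h3⟩ => ⟨⟨s, hs⟩, fun e => h1 (congrArg Fin.val e),
      fun e => h2 (congrArg Fin.val e), by rwa [← pairing_eq]⟩,
    fun ⟨s, h1, h2, h3⟩ => ⟨s, s.2, ⟨fun e => h1 (Fin.ext e), fun e => h2 (Fin.ext e)⟩,
      by rwa [pairing_eq]⟩⟩

theorem isLong_rf (i : Ix D) (r : Rt D) : D.isLong (rf i r) = D.isLong r := by
  have key : ∀ r : Rt D, D.isLong r = true → D.isLong (rf i r) = true := fun r h => by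
    obtain ⟨s, h1, h2, h3⟩ := (isLong_iff r).mp h
    exact (isLong_iff _).mpr ⟨rf i s, fun e => h1 ((sw i).injective e),
      fun e => h2 ((sw i).injective (by rw [sw_apply, sw_apply, e, rf_ng])), by rwa [pr_rf]⟩
  exact Bool.eq_iff_iff.mpr ⟨fun h => by simpa [rf_rf] using key _ h, key r⟩

/-- `f` separates the dominant roots -/
noncomputable def chkDom (c : Cert) (D : ChevalleyDatum) (f : ℕ → Bool) : Bool :=
  allN D.nroots fun r => anyN D.rank (fun i => decide (c.ca D i r < 0)) ||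
    allN D.nroots fun s => anyN D.rank (fun i => decide (c.ca D i s < 0)) || Nat.beq r s ||
      (f r != f s)

/-- `f` is an invariant of roots that separates the Weyl group orbits -/
structure Sep (D : ChevalleyDatum) [Good D] (f : ℕ → Bool) : Prop where
  inv : ∀ (i : Ix D) (r : Rt D), f (rf i r) = f r
  orb : ∀ r s : Rt D, f r = f s → ∃ w : W D, w • r = s

theorem sep_of_chk {f : ℕ → Bool} (hf : ∀ (i : Ix D) (r : Rt D), f (rf i r) = f r)
    (h : chkDom g.cert D f = true) : Sep D f := by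
  refine ⟨hf, fun r => ?_⟩
  simp only [chkDom, allN_iff, anyN_iff, Bool.or_eq_true, decide_eq_true_eq, Nat.beq_eq,
    bne_iff_ne] at h
  have hd : ∀ r : Rt D, (∀ i, 0 ≤ ca i r) → ¬ ∃ k < D.rank, g.cert.ca D k r < 0 :=
    fun r hr ⟨k, hk, e⟩ => (hr ⟨k, hk⟩).not_gt (by rwa [ca_eq'])
  induction r using ind_dom with
  | h1 i r ih =>
    intro s e
    obtain ⟨w, hw⟩ := ih s ((hf i r).symm.trans e)
    exact ⟨w * sW i, by rw [mul_smul, sW_smul, rf_rf, hw]⟩
  | h0 r hr =>
    intro s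
    induction s using ind_dom with
    | h1 i s ih =>
      intro e
      obtain ⟨w, hw⟩ := ih (e.trans (hf i s))
      exact ⟨sW i * w, by rw [mul_smul, hw, sW_smul]⟩
    | h0 s hs =>
      intro e
      rcases ((h r r.2).resolve_left (hd r hr)) s s.2 with (h | h) | h
      exacts [(hd s hs h).elim, ⟨1, by rw [one_smul, Fin.ext h]⟩, (h e).elim]

end

theorem sep_G2 : @Sep chevG2 goodG2 chevG2.isLong :=
  sep_of_chk (g := goodG2) (isLong_rf (g := goodG2)) (by decide +kernel)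
theorem sep_B2 : @Sep chevB2 goodB2 chevB2.isLong :=
  sep_of_chk (g := goodB2) (isLong_rf (g := goodB2)) (by decide +kernel)
theorem sep_F4 : @Sep chevF4 goodF4 chevF4.isLong :=
  sep_of_chk (g := goodF4) (isLong_rf (g := goodF4)) (by decide +kernel)
theorem sep_D4 : @Sep chevD4 goodD4 fun _ => false :=
  sep_of_chk (g := goodD4) (fun _ _ => rfl) (by decide +kernel)
theorem sep_E6 : @Sep chevE6 goodE6 fun _ => false :=
  sep_of_chk (g := goodE6) (fun _ _ => rfl) (by decide +kernel)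
theorem sep_E7 : @Sep chevE7 goodE7 fun _ => false :=
  sep_of_chk (g := goodE7) (fun _ _ => rfl) (by decide +kernel)
theorem sep_E8 : @Sep chevE8 goodE8 fun _ => false :=
  sep_of_chk (g := goodE8) (fun _ _ => rfl) (by decide +kernel)

/-- a long root is the sum of two short ones -/
def LongT (D : ChevalleyDatum) [Good D] (m : ℕ) : Prop :=
  ∃ s : Rt D, D.isLong s = true ∧ CTerm (fun v => D.isLong v = false) (fun _ => False) m s

theorem longT_of_chk {D : ChevalleyDatum} [g : Good D] {m : ℕ} (s : Rt D) (e : ℕ × ℕ × ℕ)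
    (h : (D.isLong s && chkCT D (fun v => !D.isLong v) (fun _ => false) m s e) = true) :
    LongT D m := by
  rw [Bool.and_eq_true] at h
  exact ⟨s, h.1, (chkCT_spec h.2).mono (by simp) (by simp)⟩

theorem longT_G2 : @LongT chevG2 goodG2 3 :=
  longT_of_chk (g := goodG2) ⟨0, by decide +kernel⟩ (2, 3, 0) (by decide +kernel)
theorem longT_B2 : @LongT chevB2 goodB2 2 :=
  longT_of_chk (g := goodB2) ⟨0, by decide +kernel⟩ (1, 2, 0) (by decide +kernel)
theorem longT_F4 : @LongT chevF4 goodF4 2 :=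
  longT_of_chk (g := goodF4) ⟨0, by decide +kernel⟩ (3, 18, 0) (by decide +kernel)

variable {D : ChevalleyDatum} [g : Good2 D] {F : Type*} [Field F] {G : Type*} [Group G]
  {S : StSys D F G} {K : Subgroup G} {f : ℕ → Bool}

theorem x_mem_smul (hN : S.N ≤ K) {r : Rt D} (hr : ∀ t, S.x r t ∈ K) (w : W D) (t : F) :
    S.x (w • r) t ∈ K := by
  obtain ⟨a, ha, hm⟩ := S.exists_N w
  obtain ⟨c, hc, h1, -⟩ := hm.exists_conj r
  rw [← mul_inv_cancel_left₀ hc t, ← h1]
  exact mul_mem (mul_mem (hN ha) (hr _)) (inv_mem (hN ha))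

theorem Sep.x_mem (h : Sep D f) (hN : S.N ≤ K) {r s : Rt D} (hr : ∀ t, S.x r t ∈ K)
    (e : f r = f s) (t : F) : S.x s t ∈ K := by
  obtain ⟨w, rfl⟩ := h.orb r s e
  exact x_mem_smul hN hr w t

theorem Sep.grp_le_two (h : Sep D f) (hN : S.N ≤ K) {r s : Rt D} (hr : ∀ t, S.x r t ∈ K)
    (hs : ∀ t, S.x s t ∈ K) (h1 : f r = false) (h2 : f s = true) : S.grp ≤ K :=
  S.XS_le.mpr fun v _ => by
    cases e : f v
    exacts [h.x_mem hN hr (h1.trans e.symm), h.x_mem hN hs (h2.trans e.symm)]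

theorem Sep.grp_le_short (h : Sep D D.isLong) {m : ℕ} (hl : LongT D m) (hm : (m : F) ≠ 0)
    (hN : S.N ≤ K) {r : Rt D} (hr : ∀ t, S.x r t ∈ K) (h1 : D.isLong r = false) : S.grp ≤ K := by
  obtain ⟨s, h2, h3⟩ := hl
  refine h.grp_le_two hN hr (StSys.x_mem_of_cterm h3 hm (fun a b ha hb t u => ?_)
    fun _ h => h.elim) h1 h2
  have ha := h.x_mem hN hr (h1.trans ha.symm)
  have hb := h.x_mem hN hr (h1.trans hb.symm)
  exact mul_mem (inv_mem (mul_mem (ha _) (hb _))) (mul_mem (hb _) (ha _))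

theorem root_mem (i : ℕ) (hi : i < D.rank) (t : F) :
    (glSys D F).x (sim ⟨i, hi⟩) t ∈ D.rootSubgroup F (D.simple i) :=
  Subgroup.subset_closure ⟨t, by rw [gl_x_val, sim_val]⟩

theorem cast_ne_of_ringChar {p : ℕ} (hp : p.Prime) (h : ringChar F ≠ p) : (p : F) ≠ 0 := fun e =>
  ((Nat.dvd_prime hp).mp ((ringChar.spec F p).mp e)).elim CharP.ringChar_ne_one h

end Cfsg.Agent.H23
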