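import Mathlib
import Cfsg.Agent.FGS.BHM
import Cfsg.Agent.PGrp.Frattini

/-!
# Class sizes of `p`-singular elements
-/

set_option autoImplicit false

namespace Cfsg.Agent.H23.SingCl

open Subgroup
open scoped commutatorElement Pointwise

variable {G : Type*} [Group G] [Finite G]

/-- class size -/
noncomputable abbrev ci (x : G) : ℕ := (centralizer ({x} : Set G)).index

theorem comm_all {u v : G} (h : (ci u).Coprime (ci v)) (g : G) (hc : u * (g * v * g⁻¹) = g * v * g⁻¹ * u) :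
    u * v = v * u := by
  obtain ⟨s, hs, t, ht, rfl⟩ := Core.exists_mul_of_coprime_index h g
  have h1 := mem_centralizer_singleton_iff.mp hs
  have h2 := mem_centralizer_singleton_iff.mp ht
  have e : s * t * v * (s * t)⁻¹ = s * v * s⁻¹ := by
    calc _ = s * (t * v) * t⁻¹ * s⁻¹ := by group
      _ = _ := by rw [h2]; group
  rw [e] at hc
  calc u * v = s⁻¹ * ((s * u) * v * s⁻¹) * s := by group
    _ = s⁻¹ * (u * (s * v * s⁻¹)) * s := by rw [h1]; group
    _ = s⁻¹ * (s * v * s⁻¹ * u) * s := by rw [hc]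
    _ = v * (s⁻¹ * (u * s)) := by group
    _ = _ := by rw [← h1]; group

theorem caseA {p : ℕ} [hp : Fact p.Prime] {x y : G} (hx : x ^ p = 1) (h : (ci x).Coprime (ci y))
    (hy : ¬ p ∣ ci y) (h2 : (ci (y * x)).Coprime (ci x)) : x ∈ center G := by
  have e : centralizer ({x} : Set G) ⊓ centralizer {y * x} = centralizer {x} ⊓ centralizer {y} := by
    ext g
    simp only [mem_inf, mem_centralizer_singleton_iff]
    refine and_congr_right fun h1 => ⟨fun h3 => ?_, fun h3 => ?_⟩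
    · have : g * y * x = y * g * x := by rw [mul_assoc, h3, mul_assoc, ← h1, mul_assoc]
      exact mul_right_cancel this
    · rw [← mul_assoc, h3, mul_assoc, h1, mul_assoc]
  have h3 : ci x * ci (y * x) ∣ (centralizer ({x} : Set G) ⊓ centralizer {y * x}).index :=
    h2.symm.mul_dvd_of_dvd_of_dvd (index_dvd_of_le inf_le_left) (index_dvd_of_le inf_le_right)
  have h4 := Nat.le_of_dvd (Nat.pos_of_ne_zero FiniteIndex.index_ne_zero) h3
  rw [e] at h4
  have h5 : ci (y * x) ≤ ci y :=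
    Nat.le_of_mul_le_mul_left (h4.trans index_inf_le) (Nat.pos_of_ne_zero FiniteIndex.index_ne_zero)
  obtain ⟨h6, h7⟩ := FGS.mem_clStab h.symm h5
  refine mem_center_iff.mpr fun g => ?_
  have hn := h6 g
  have hc : Commute ⁅g, x⁆ x := h7 _ hn
  have e1 : ⁅g, x⁆ * x = g * x * g⁻¹ := by rw [commutatorElement_def]; group
  have e2 : ⁅g, x⁆ ^ p = 1 := by
    have := hc.mul_pow p
    rw [e1, hx, mul_one, conj_pow, hx] at this
    rw [← this]; group
  have d1 : orderOf ⁅g, x⁆ ∣ p := orderOf_dvd_of_pow_eq_one e2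
  have d2 : orderOf ⁅g, x⁆ ∣ ci y := (orderOf_dvd_natCard _ hn).trans (FGS.card_clStab_dvd y)
  have d3 : orderOf ⁅g, x⁆ = 1 :=
    (Nat.coprime_self _).mp (((hp.out.coprime_iff_not_dvd.mpr hy).coprime_dvd_left d1).coprime_dvd_right d2)
  exact commutatorElement_eq_one_iff_mul_comm.mp (orderOf_eq_one_iff.mp d3)

theorem caseB {p : ℕ} [hp : Fact p.Prime] {x y : G} (hx : orderOf x = p) (h : (ci x).Coprime (ci y))
    (hpy : p ∣ ci y) (P : Sylow p G) (hP : (P : Subgroup G) ≤ centralizer {x}) (hyP : y ∈ P) (hy : orderOf y = p)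
    (H : ∀ z : G, p ∣ orderOf z → (ci z).Coprime (ci x) ∨ (ci z).Coprime (ci y)) : x ∈ center G := by
  by_contra hxz
  have hx1 : ci x ≠ 1 := fun e => hxz (FGS.index_centralizer_eq_one_iff.mp e)
  set C := centralizer ({x} : Set G) with hC
  -- C = P C(P)
  have s1 : ∀ c ∈ C, ∃ k ∈ C, k * c * k⁻¹ ∈ (P : Subgroup G) ⊔ (C ⊓ centralizer ((P : Subgroup G) : Set G)) := by
    intro c hc
    obtain ⟨a, b, ha, hb, e, hab, ⟨k, hk⟩, hbp⟩ := FGS.exists_pPart p c
    have haC : a ∈ C := (zpowers_le.mpr hc) ha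
    have hbC : b ∈ C := (zpowers_le.mpr hc) hb
    have hxb : Commute x b := (mem_centralizer_singleton_iff.mp hbC).symm
    have hco : (orderOf x).Coprime (orderOf b) := hx ▸ hbp.symm
    have hz := FGS.centralizer_mul_of_coprime hxb hco
    have hpz : p ∣ orderOf (x * b) := by
      rw [hxb.orderOf_mul_eq_mul_orderOf_of_coprime hco, hx]; exact dvd_mul_right _ _
    have hd : ci x ∣ ci (x * b) := index_dvd_of_le (hz.le.trans inf_le_left)
    have hnd : ¬ p ∣ ci (x * b) := by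
      rcases H _ hpz with h1 | h1
      · exact absurd ((Nat.coprime_self _).mp (h1.coprime_dvd_left hd)) hx1
      · exact fun h2 => hp.out.one_lt.ne' ((Nat.coprime_self _).mp ((h1.coprime_dvd_left h2).coprime_dvd_right hpy))
    obtain ⟨P1, h1, h2⟩ := FGS.exists_sylow_le_of_not_dvd_index' hnd (FGS.isPGroup_zpowers hk)
      (zpowers_le.mpr (hz.ge ⟨haC, mem_centralizer_singleton_iff.mpr hab⟩))
    obtain ⟨d, hd, e1⟩ := FGS.exists_smul_sylow_in P P1 hP (h2.trans (hz.le.trans inf_le_left))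
    refine ⟨d⁻¹, inv_mem hd, ?_⟩
    have e2 : d⁻¹ * c * d⁻¹⁻¹ = (d⁻¹ * a * d) * (d⁻¹ * b * d) := by rw [e]; group
    rw [e2]
    refine mul_mem (mem_sup_left ?_) (mem_sup_right (mem_inf.mpr
      ⟨C.mul_mem (C.mul_mem (C.inv_mem hd) hbC) hd, fun u hu => ?_⟩))
    · have := h1 (mem_zpowers a)
      rw [← e1] at this
      exact FGS.mem_smul_sylow_iff.mp this
    · have h3 : d * u * d⁻¹ ∈ P1 := by
        rw [← e1]; refine FGS.mem_smul_sylow_iff.mpr ?_
        simpa [mul_assoc] using hu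
      have h4 := mem_centralizer_singleton_iff.mp (hz.le (h2 h3)).2
      calc u * (d⁻¹ * b * d) = d⁻¹ * (d * u * d⁻¹ * b) * d := by group
        _ = _ := by rw [h4]; group
  have s2 : ∀ c ∈ C, ∃ v ∈ (P : Subgroup G), ∃ d ∈ centralizer ((P : Subgroup G) : Set G), c = v * d := by
    intro c hc
    have := FGS.eq_top_of_forall_conj_mem
      (((P : Subgroup G) ⊔ (C ⊓ centralizer ((P : Subgroup G) : Set G))).subgroupOf C) fun c => by
        obtain ⟨k, hk, h1⟩ := s1 c c.2
        exact ⟨⟨k, hk⟩, h1⟩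
    have h1 : c ∈ (P : Subgroup G) ⊔ (C ⊓ centralizer ((P : Subgroup G) : Set G)) := this.ge (mem_top (⟨c, hc⟩ : C))
    have hn : (C ⊓ centralizer ((P : Subgroup G) : Set G)) ≤ normalizer ((P : Subgroup G) : Set G) :=
      inf_le_right.trans (centralizer_le_normalizer _)
    have h2 := (coe_mul_of_right_le_normalizer_left _ _ hn).le h1
    obtain ⟨v, hv, d, hd, e⟩ := h2
    exact ⟨v, hv, d, hd.2, e.symm⟩
  -- elements outside C(y)
  have s3 : ∀ u ∈ (P : Subgroup G), u ∉ centralizer ({y} : Set G) → ∀ g : G,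
      g * u * g⁻¹ * u⁻¹ ∈ ⁅(P : Subgroup G), (P : Subgroup G)⁆ := by
    intro u hu huy g
    obtain ⟨k, hk⟩ := FGS.exists_orderOf_eq_of_mem P.isPGroup' hu
    have hu1 : u ≠ 1 := fun e => huy (e ▸ one_mem _)
    have hpu : p ∣ orderOf u := by
      rw [hk]; refine dvd_pow_self _ fun e => hu1 ?_
      rw [e, pow_zero] at hk; exact orderOf_eq_one_iff.mp hk
    rcases H u hpu with h1 | h1
    · obtain ⟨s, hs, t, ht, rfl⟩ := Core.exists_mul_of_coprime_index h1.symm g
      obtain ⟨v, hv, d, hd, rfl⟩ := s2 s hs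
      have e1 := mem_centralizer_singleton_iff.mp ht
      have e2 := hd u hu
      have : v * d * t * u * (v * d * t)⁻¹ * u⁻¹ = ⁅v, u⁆ := by
        calc _ = v * d * (t * u) * t⁻¹ * d⁻¹ * v⁻¹ * u⁻¹ := by group
          _ = v * (d * u) * d⁻¹ * v⁻¹ * u⁻¹ := by rw [e1]; group
          _ = _ := by rw [← e2, commutatorElement_def]; group
      rw [this]; exact commutator_mem_commutator hv hu
    · exfalso
      have hnd : ¬ p ∣ ci u := fun h2 =>
        hp.out.one_lt.ne' ((Nat.coprime_self _).mp ((h1.coprime_dvd_left h2).coprime_dvd_right hpy))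
      obtain ⟨P1, h2⟩ := FGS.exists_sylow_le_centralizer hnd
      obtain ⟨g, rfl⟩ := MulAction.exists_smul_eq G P P1
      have h3 := h2 (g * y * g⁻¹) (FGS.mem_smul_sylow_iff.mpr (by simpa [mul_assoc] using hyP))
      exact huy (mem_centralizer_singleton_iff.mpr (comm_all h1 g h3.symm))
  have hne : ¬ (P : Subgroup G) ≤ centralizer ({y} : Set G) := fun h1 => FGS.not_dvd_index_of_sylow_le P h1 hpy
  obtain ⟨u0, hu0, hu0y⟩ := SetLike.not_le_iff_exists.mp hne
  have hcn : ∀ v ∈ (P : Subgroup G), ∀ w ∈ ⁅(P : Subgroup G), (P : Subgroup G)⁆,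
      v * w * v⁻¹ ∈ ⁅(P : Subgroup G), (P : Subgroup G)⁆ := fun v hv w hw =>
    (mem_normalizer_iff.mp (normalizer_commutator_ge_left _ _ hv) w).mp hw
  have s4 : ∀ u ∈ (P : Subgroup G), ∀ g : G, g * u * g⁻¹ * u⁻¹ ∈ ⁅(P : Subgroup G), (P : Subgroup G)⁆ := by
    intro u hu g
    by_cases huy : u ∈ centralizer ({y} : Set G)
    · have h1 := s3 u0 hu0 hu0y g
      have h2 := s3 (u0 * u) (mul_mem hu0 hu) (fun h => hu0y ((mul_mem_cancel_right huy).mp h)) g
      have h3 := hcn u0⁻¹ (inv_mem hu0) _ (mul_mem (inv_mem h1) h2)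
      convert h3 using 1; group
    · exact s3 u hu huy g
  have hPP : ⁅(P : Subgroup G), (P : Subgroup G)⁆ ≤ P := Core.commutator_le_of_le_normalizer le_normalizer
  have hN : (P : Subgroup G).Normal := ⟨fun u hu g => by
    have := mul_mem (hPP (s4 u hu g)) hu
    simpa using this⟩
  obtain ⟨q, hq, hqd⟩ := Nat.exists_prime_and_dvd hx1
  haveI := Fact.mk hq
  have hqp : q ≠ p := fun e => FGS.not_dvd_index_of_sylow_le P hP (e ▸ hqd)
  obtain ⟨Q⟩ : Nonempty (Sylow q G) := inferInstance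
  have hxP : x ∈ P := FGS.mem_sylow_of_commute P (k := 1) (by rw [hx, pow_one]) fun v hv =>
    mem_centralizer_singleton_iff.mp (hP hv)
  have hcop : (Nat.card (Q : Subgroup G)).Coprime (Nat.card (P : Subgroup G)) :=
    IsPGroup.coprime_card_of_ne q p hqp _ _ Q.isPGroup' P.isPGroup'
  have h5 := Core.commutator_sup_centralizer (Q : Subgroup G) (P : Subgroup G)
    (le_top.trans (normalizer_eq_top _).ge) hcop (.inl (Core.solvable_of_isPGroup Q.isPGroup'))
  have h6 : ⁅(P : Subgroup G), (Q : Subgroup G)⁆ ≤ (frattini (P : Subgroup G)).map (P : Subgroup G).subtype := by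
    refine le_trans (commutator_le.mpr fun u hu g _ => ?_) (PGrp.commutator_le_map_frattini P.isPGroup')
    rw [← commutatorElement_inv]
    exact inv_mem (s4 u hu g)
  have h7 : ((P : Subgroup G) ⊓ centralizer ((Q : Subgroup G) : Set G)).subgroupOf P = ⊤ := by
    refine frattini_nongenerating (eq_top_iff.mpr fun u _ => ?_)
    have h8 : (u : G) ∈ (((P : Subgroup G) ⊓ centralizer ((Q : Subgroup G) : Set G)).subgroupOf P ⊔
        frattini (P : Subgroup G)).map (P : Subgroup G).subtype := by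
      rw [Subgroup.map_sup, subgroupOf_map_subtype]
      refine (sup_le (h6.trans le_sup_right) (le_trans (le_inf le_rfl inf_le_left) le_sup_left)) (h5.ge u.2)
    obtain ⟨w, hw, e⟩ := h8
    exact (Subtype.ext e : w = u) ▸ hw
  have h9 : x ∈ centralizer ((Q : Subgroup G) : Set G) := (h7.ge (mem_top (⟨x, hxP⟩ : (P : Subgroup G)))).2
  exact FGS.not_dvd_index_of_sylow_le Q (fun v hv => mem_centralizer_singleton_iff.mpr (h9 v hv)) hqd

theorem half {p : ℕ} [hp : Fact p.Prime] {x y : G} (hx : orderOf x = p) (hy : orderOf y = p)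
    (hxz : x ∉ center G) (hyz : y ∉ center G) (h : (ci x).Coprime (ci y)) (hpx : ¬ p ∣ ci x)
    (H : ∀ z : G, p ∣ orderOf z → (ci z).Coprime (ci x) ∨ (ci z).Coprime (ci y)) : False := by
  obtain ⟨P, hP⟩ := FGS.exists_sylow_le_of_not_dvd_index hpx
  obtain ⟨P1, h1⟩ := FGS.exists_sylow_mem (p := p) (k := 1) (x := y) (by rw [hy, pow_one])
  obtain ⟨g, rfl⟩ := MulAction.exists_smul_eq G P P1
  have h2 := FGS.mem_smul_sylow_iff.mp h1
  have e : ci (g⁻¹ * y * g) = ci y := by
    have := FGS.index_centralizer_conj g⁻¹ y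
    rwa [inv_inv] at this
  by_cases hpy : p ∣ ci y
  · refine hxz (caseB hx (y := g⁻¹ * y * g) (e ▸ h) (e ▸ hpy) P hP h2 ?_ (e ▸ H))
    rw [← hy]
    have := (MulAut.conj g⁻¹).orderOf_eq y
    simpa using this
  · have hc : x * y = y * x := comm_all h g⁻¹ (by
      rw [inv_inv]; exact (mem_centralizer_singleton_iff.mp (hP h2)).symm)
    have hxp : x ^ p = 1 := hx ▸ pow_orderOf_eq_one x
    have hyp : y ^ p = 1 := hy ▸ pow_orderOf_eq_one y
    have hz : (x * y) ^ p = 1 := by rw [Commute.mul_pow hc, hxp, hyp, one_mul]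
    have hz1 : x * y ≠ 1 := by
      intro e1
      have e2 : x ∈ zpowers y := by rw [eq_inv_of_mul_eq_one_left e1]; exact inv_mem (mem_zpowers y)
      have h3 : ci x ∣ ci y := index_dvd_of_le (FGS.centralizer_le_of_mem_zpowers e2)
      exact hxz (FGS.index_centralizer_eq_one_iff.mp ((Nat.coprime_self _).mp (h.coprime_dvd_right h3)))
    rcases H (x * y) (orderOf_eq_prime hz hz1).symm.dvd with h3 | h3
    · exact hxz (caseA hxp h hpy (hc ▸ h3))
    · exact hyz (caseA hyp h.symm hpx h3)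

theorem main {p : ℕ} [hp : Fact p.Prime] (hZ : ¬ p ∣ Nat.card (center G)) {x y : G} (hx : p ∣ orderOf x)
    (hy : p ∣ orderOf y) : ∃ z : G, p ∣ orderOf z ∧ ¬ (ci z).Coprime (ci x) ∧ ¬ (ci z).Coprime (ci y) := by
  obtain ⟨i, hi⟩ := FGS.exists_pow_orderOf_eq hx
  obtain ⟨j, hj⟩ := FGS.exists_pow_orderOf_eq hy
  have d1 : ci (x ^ i) ∣ ci x := index_dvd_of_le (FGS.centralizer_le_of_mem_zpowers (pow_mem (mem_zpowers x) i))
  have d2 : ci (y ^ j) ∣ ci y := index_dvd_of_le (FGS.centralizer_le_of_mem_zpowers (pow_mem (mem_zpowers y) j))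
  have nc : ∀ u : G, orderOf u = p → u ∉ center G := fun u hu h => hZ (hu ▸ orderOf_dvd_natCard _ h)
  by_contra hn
  push Not at hn
  have H : ∀ z : G, p ∣ orderOf z → (ci z).Coprime (ci (x ^ i)) ∨ (ci z).Coprime (ci (y ^ j)) := fun z hz => by
    by_cases h : (ci z).Coprime (ci x)
    · exact .inl (h.coprime_dvd_right d1)
    · exact .inr ((hn z hz h).coprime_dvd_right d2)
  have h : (ci (x ^ i)).Coprime (ci (y ^ j)) := by
    rcases H (x ^ i) hi.symm.dvd with h | h
    · exact absurd (FGS.index_centralizer_eq_one_iff.mp ((Nat.coprime_self _).mp h)) (nc _ hi)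
    · exact h
  by_cases hpx : p ∣ ci (x ^ i)
  · have hpy : ¬ p ∣ ci (y ^ j) := fun h2 =>
      hp.out.one_lt.ne' ((Nat.coprime_self _).mp ((h.coprime_dvd_left hpx).coprime_dvd_right h2))
    exact half hj hi (nc _ hj) (nc _ hi) h.symm hpy fun z hz => (H z hz).symm
  · exact half hi hj (nc _ hi) (nc _ hj) h hpx H

end Cfsg.Agent.H23.SingCl
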