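import Mathlib
import Cfsg.Agent.H23.MatD2
import Cfsg.Agent.S2566

/-! Steinberg characters of the even dimensional orthogonal groups. -/

set_option autoImplicit false
set_option linter.unusedSectionVars false

namespace Cfsg.Agent.H23
open Matrix Equiv
open scoped _root_.Classical MatrixGroups commutatorElement

/-- existence of a Steinberg character -/
def HasSt (p : ℕ) (G : Type*) [Group G] : Prop := ∃ χ : G → ℂ, IsIrrCharacter G χ ∧
  ∀ P : Sylow p G, χ 1 = Nat.card P ∧ ∀ x : G, x ∈ P → x ≠ 1 → χ x = 0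

variable {p : ℕ} [hp : Fact p.Prime] {G H : Type*} [Group G] [Group H] [Finite G]

theorem HasSt.of_surj (h : HasSt p H) (f : G →* H) (hf : Function.Surjective f)
    (hk : ¬ p ∣ Nat.card f.ker) : HasSt p G := by
  obtain ⟨χ, h1, h2⟩ := h
  have h3 : ∀ P : Sylow p G, ∀ x ∈ P, f x = 1 → x = 1 := fun P x hx e =>
    (SB.PE.of_mem P.isPGroup' hx).eq_one fun h => hk (h.trans (Subgroup.orderOf_dvd_natCard _ e))
  refine ⟨_, Char.isIrr_comp_surjective f hf h1, fun P => ⟨?_, fun x hx e =>
    (h2 (P.mapSurjective hf)).2 _ ⟨x, hx, rfl⟩ (mt (h3 P x hx) e)⟩⟩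
  rw [map_one, (h2 (P.mapSurjective hf)).1]
  exact congrArg _ (Nat.card_congr (Equiv.ofBijective (f.subgroupMap P) ⟨(injective_iff_map_eq_one
    _).mpr fun x e => Subtype.ext (h3 P x x.2 (congrArg Subtype.val e)),
      f.subgroupMap_surjective P⟩)).symm

theorem HasSt.of_equiv (h : HasSt p H) (e : G ≃* H) : HasSt p G :=
  h.of_surj e.toMonoidHom e.surjective (by
    rw [(MonoidHom.ker_eq_bot_iff _).mpr e.injective, Subgroup.card_bot]; exact hp.out.not_dvd_one)

theorem hasSt_of_dihedral {n : ℕ} (e : G ≃* DihedralGroup n) :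
    HasSt p (commutator G ⧸ Subgroup.center (commutator G)) := by
  have h1 : ∀ a b : DihedralGroup n, ∃ i, ⁅a, b⁆ = .r i := by
    rintro (a | a) (b | b) <;> exact ⟨_, rfl⟩
  have h2 : ∀ x ∈ commutator G, ∃ i, e x = .r i := fun x hx => by
    rw [commutator_eq_closure] at hx
    induction hx using Subgroup.closure_induction with
    | mem x hx => obtain ⟨a, b, rfl⟩ := hx; simpa using h1 (e a) (e b)
    | one => exact ⟨0, map_one e⟩
    | mul a b _ _ ha hb => exact let ⟨i, hi⟩ := ha; let ⟨j, hj⟩ := hb; ⟨i + j, by simp [hi, hj]⟩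
    | inv a _ ha => exact let ⟨i, hi⟩ := ha; ⟨-i, by simp [hi]⟩
  have : Subsingleton (commutator G ⧸ Subgroup.center (commutator G)) :=
    QuotientGroup.subsingleton_iff.mpr (eq_top_iff.mpr fun x _ => Subgroup.mem_center_iff.mpr
      fun y => Subtype.ext (e.injective (by
        obtain ⟨i, hi⟩ := h2 _ x.2
        obtain ⟨j, hj⟩ := h2 _ y.2
        simp [hi, hj, add_comm])))
  exact ⟨_, Char.isIrr_one, fun P => ⟨by simp, fun x _ h => absurd (Subsingleton.elim _ _) h⟩⟩

theorem wr_aux (φ : Perm (Fin 3) × Perm (Fin 3) →* G) (hφ : Function.Injective φ)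
    (hc : Nat.card G = 72) (t : G) (hs : ∀ a, t * φ (a, 1) * t⁻¹ = φ (1, a)) :
    ∃ π : commutator G ⧸ Subgroup.center (commutator G) →* Perm (Fin 3),
      Function.Surjective π ∧ ¬ 2 ∣ Nat.card π.ker := by
  let lam : Perm (Fin 3) × Perm (Fin 3) →* ℤˣ :=
    Perm.sign.comp (MonoidHom.fst _ _) * Perm.sign.comp (MonoidHom.snd _ _)
  have h0 : Nat.card (Perm (Fin 3) × Perm (Fin 3)) = 36 := by
    rw [Nat.card_prod, Nat.card_perm, Nat.card_fin]; rfl
  have h1 : Nat.card lam.ker = 18 := by
    have := lam.ker.index_mul_card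
    rw [Subgroup.index_ker, MonoidHom.range_eq_top.mpr fun u => ?_, h0] at this
    · rw [Subgroup.card_top, Nat.card_eq_fintype_card, Fintype.card_units_int] at this; omega
    · obtain ⟨a, rfl⟩ := Perm.sign_surjective (Fin 3) u
      exact ⟨(a, 1), by simp [lam]⟩
  have h2 : φ.range.index = 2 := by
    have := φ.range.index_mul_card
    rw [hc, ← Nat.card_congr (MonoidHom.ofInjective hφ).toEquiv, h0] at this
    omega
  have h3 : t ∉ φ.range := by
    rintro ⟨c, rfl⟩
    have := hs (swap 0 1)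
    rw [← map_inv, ← map_mul, ← map_mul] at this
    exact absurd (show 1 = Equiv.swap (0 : Fin 3) 1 by simpa using congrArg Prod.snd (hφ this))
      (by decide)
  have h4 : ∀ x ∈ lam.ker.map φ, t * x * t⁻¹ ∈ lam.ker.map φ := by
    rintro _ ⟨⟨a, b⟩, h, rfl⟩
    obtain ⟨c, hc⟩ := Subgroup.mul_self_mem_of_index_two h2 t
    refine ⟨(1, a) * (c * (b, 1) * c⁻¹), ?_, ?_⟩
    · rw [SetLike.mem_coe, MonoidHom.mem_ker, map_mul, map_mul, map_mul, map_inv, mul_inv_cancel_comm]
      simpa [lam] using h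
    rw [map_mul, map_mul, map_mul, map_inv, hc, ← hs, show (a, b) = (a, 1) * (1, b) by simp,
      map_mul, ← hs]
    group
  have : (lam.ker.map φ).Normal := ⟨fun x hx g => by
    have h5 : ∀ g ∈ φ.range, ∀ x ∈ lam.ker.map φ, g * x * g⁻¹ ∈ lam.ker.map φ := by
      rintro _ ⟨c, rfl⟩ _ ⟨x, h, rfl⟩
      exact ⟨_, Subgroup.Normal.conj_mem inferInstance _ h c, by simp⟩
    by_cases h : g ∈ φ.range
    · exact h5 g h x hx
    · simpa [mul_assoc] using h5 (g * t⁻¹)
        (by simp [Subgroup.mul_mem_iff_of_index_two h2, h, h3]) _ (h4 x hx)⟩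
  have h5 : commutator G ≤ lam.ker.map φ :=
    Subgroup.Normal.quotient_commutative_iff_commutator_le.mp
      (IsPGroup.isMulCommutative_of_card_eq_prime_sq (p := 2) (by
        have := (lam.ker.map φ).index_mul_card
        rw [Subgroup.card_map_of_injective hφ, h1, hc] at this
        change (lam.ker.map φ).index = _
        omega))
  let π : commutator G →* Perm (Fin 3) := (MonoidHom.fst _ _).comp
    ((MonoidHom.ofInjective hφ).symm.toMonoidHom.comp (Subgroup.inclusion
      (h5.trans (Subgroup.map_le_range _ _))))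
  have h6 : Function.Surjective π := fun a => ⟨⟨⁅φ (a, 1), t⁆, Subgroup.commutator_mem_commutator
      (Subgroup.mem_top _) (Subgroup.mem_top _)⟩, congrArg Prod.fst (show _ = (a, a⁻¹) from
        (MulEquiv.symm_apply_eq (MonoidHom.ofInjective hφ)).mpr (Subtype.ext (by
          change _ = φ (a, a⁻¹)
          rw [show (a, a⁻¹) = (a, 1) * (1, a)⁻¹ by simp, map_mul, map_inv, ← hs]
          simp [commutatorElement_def, mul_assoc])))⟩
  have h7 : ∀ x : Perm (Fin 3), (∀ y, y * x = x * y) → x = 1 := by decide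
  let π' := QuotientGroup.lift (Subgroup.center _) π fun x hx => h7 _ fun y => by
    obtain ⟨y, rfl⟩ := h6 y
    rw [← map_mul, ← map_mul, Subgroup.mem_center_iff.mp hx]
  have h8 : Function.Surjective π' := QuotientGroup.lift_surjective_of_surjective _ _ h6 _
  refine ⟨π', h8, fun h => ?_⟩
  have h9 := π'.ker.index_mul_card
  rw [Subgroup.index_ker, MonoidHom.range_eq_top.mpr h8, Subgroup.card_top, Nat.card_perm,
    Nat.card_fin] at h9
  have h10 := (Subgroup.card_quotient_dvd_card (Subgroup.center (commutator G))).trans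
    (Subgroup.card_dvd_of_le h5)
  rw [Subgroup.card_map_of_injective hφ, h1, ← h9] at h10
  exact absurd ((mul_dvd_mul_left _ h).trans h10) (by decide)

variable {F : Type*} [Field F] [Finite F] [CharP F p]

theorem hasSt_plus (m : ℕ) (hm : 1 ≤ m) : HasSt p (POmega F (quadFormPlus m F)) := by
  obtain rfl | hm := hm.eq_or_lt
  · obtain ⟨e⟩ := Orth.dihedral_hypQ (F := F)
    exact hasSt_of_dihedral (((Orth.toOG (Orth.plusQ 1 F)).trans
      (Orth.ogCongr (Orth.plusOne F).symm)).trans e)
  obtain ⟨k, rfl⟩ : ∃ k, m = k + 2 := ⟨m - 2, by omega⟩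
  by_cases hg : Orth.Good F (TD.Ix k → F)
  · exact (TD.plusSB p hg).steinberg_quot
  obtain rfl : k = 0 := by_contra fun h => hg (TD.good_of_pos (by omega))
  have := Fintype.ofFinite F
  have h1 : Nat.card F = 2 := Nat.card_eq_fintype_card.trans
    (by_contra fun h => hg (Orth.good_of_card (Or.inl h)))
  obtain rfl : p = 2 := (Nat.prime_dvd_prime_iff_eq hp.out Nat.prime_two).mp (by
    rw [← h1, Nat.card_eq_fintype_card, ← CharP.cast_eq_zero_iff F]; exact FiniteField.cast_card_eq_zero F)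
  have h2 : (2 : F) = 0 := CharP.cast_eq_zero F 2
  obtain ⟨ρ, t, hρ, ht⟩ := S2566.aux2 h2
  obtain ⟨e⟩ := Classical.PSL2Basic.psl_equiv_S3 h1
  let e' := (Classical.PSL2Basic.slEquivPSL h2).trans e
  obtain ⟨π, h3, h4⟩ := wr_aux (ρ.comp (e'.symm.toMonoidHom.prodMap e'.symm.toMonoidHom))
    (hρ.comp (e'.symm.injective.prodMap e'.symm.injective)) (by rw [Orth.card_OG_plusQ, h1]; decide) t
    fun a => by simpa [mul_inv_eq_iff_eq_mul] using ht (e'.symm a)
  exact ((HasSt.of_equiv ((slMG 1 F).sb 2).steinberg e'.symm).of_surj π h3 h4).of_equiv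
    (Orth.pomegaEquiv (Orth.plusQ 2 F))

theorem hasSt_minus (m : ℕ) {a b : F} (hab : Orth.Aniso a b) :
    HasSt p (POmega F (quadFormMinus m F a b)) := by
  rcases m with _ | _ | k
  · obtain ⟨e⟩ := Orth.dihedral_binQ hab
    exact hasSt_of_dihedral (((Orth.toOG (Orth.minusQ 0 F a b)).trans
      (Orth.ogCongr (Orth.minusZero a b).symm)).trans e)
  · have := hab.fact
    have : Finite (QuadraticAlgebra F (-b) a) := Module.finite_of_finite F
    have : CharP (QuadraticAlgebra F (-b) a) p := charP_of_injective_algebraMap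
      (algebraMap F _).injective p
    obtain ⟨e⟩ := (Orth.spin4m (K := QuadraticAlgebra F (-b) a) rfl (by
      rw [Module.natCard_eq_pow_finrank (K := F), QuadraticAlgebra.finrank_eq_two]) hab).pomega
    exact HasSt.of_equiv ((slMG 1 _).sb p).steinberg_quot e
  · exact (TD.minusSB p hab (TD.good_minus (by omega))).steinberg_quot

end Cfsg.Agent.H23
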