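import Mathlib
import Cfsg.Agent.Chev.All2
import Cfsg.Agent.Chev.Cox

/-! Centre of the Weyl group; generation by a Coxeter element and reflections. -/

set_option autoImplicit false
set_option linter.unusedSectionVars false
set_option maxRecDepth 100000

namespace Cfsg.Agent.H23
open Cfsg.Lie Cfsg.Agent.Chev Cfsg.Agent.BN

variable {D : ChevalleyDatum} [g : Good D]

variable (D) in
/-- the Coxeter element -/
noncomputable def coxW : W D := wp sW (List.finRange D.rank)

theorem coxW_val (ν : Rt D) : ((coxW D • ν : Rt D) : ℕ) = g.cert.appW (List.range D.rank) ν := by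
  rw [coxW, wp_smul_val, List.map_coe_finRange_eq_range]

theorem wp_pow_val (l : List (Ix D)) (m : ℕ) (ν : Rt D) :
    ((wp sW l ^ m • ν : Rt D) : ℕ) = g.cert.iterW (l.map Fin.val) m ν := by
  induction m with
  | zero => rw [pow_zero, one_smul]; rfl
  | succ m ih =>
    rw [pow_succ', mul_smul, wp_smul_val, ih]
    exact (force_eq _ _).symm

theorem eq_or_of_rW {r : Rt D} {i : Ix D} (h : rW r = sW i) : r = sim i ∨ r = ng (sim i) := by
  by_contra hn
  obtain ⟨j, hj, h1⟩ := exists_co_ne (not_or.mp hn).1 (not_or.mp hn).2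
  have := congrFun (congrArg co (rW_smul_self r)) j
  rw [h, sW_smul, co_rf, co_ng] at this
  simp only [Pi.sub_apply, Pi.smul_apply, Pi.single_eq_of_ne hj, Pi.neg_apply, smul_zero] at this
  omega

theorem center_sign (hc : Conn D) {z : W D} (hz : z ∈ Subgroup.center (W D)) :
    z = 1 ∨ ∀ i : Ix D, z • sim i = ng (sim i) := by
  have h1 : ∀ i : Ix D, z • sim i = sim i ∨ z • sim i = ng (sim i) := fun i => eq_or_of_rW (by
    rw [rW_smul, rW_sim, ← Subgroup.mem_center_iff.mp hz, mul_inv_cancel_right])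
  by_contra hn
  rw [not_or, not_forall] at hn
  obtain ⟨h2, i, h3⟩ := hn
  obtain ⟨j, h4⟩ := exists_not_pos h2
  obtain ⟨a, ha, b, hb, h5⟩ := hc {i | z • sim i = sim i} ⟨i, (h1 i).resolve_right h3⟩
    ⟨j, fun e : z • sim j = sim j => h4 (e.symm ▸ pos_sim j)⟩
  have := pr_smul z (sim a) (sim b)
  rw [ha, (h1 b).resolve_left hb, pr_ng_right, pr_sim] at this
  omega

theorem mem_center_of_neg {c : W D} (h : ∀ i : Ix D, c • sim i = ng (sim i)) :
    c ∈ Subgroup.center (W D) := by
  have h1 : ∀ r : Rt D, c • r = ng r := fun r => co_inj (by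
    rw [co_smul, co_ng, eq_sum_single (co r), ← Finset.sum_neg_distrib]
    exact Finset.sum_congr rfl fun i _ => by
      rw [h, co_ng, co_sim, smul_neg, ← eq_sum_single])
  exact Subgroup.mem_center_iff.mpr fun w => W_ext fun r => by
    rw [mul_smul, mul_smul, h1, h1, smul_ng]

/-- `k = 2`: a power of the Coxeter element is `-1`; `k = 1`: it is the longest element, not `-1` -/
noncomputable def chkCen (c : Cert) (D : ChevalleyDatum) (l : List ℕ) (n k : ℕ) : Bool :=
  Nat.blt 0 D.rank &&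
  allN D.rank (fun i => c.neg D (c.iterW l n (D.simple i))) &&
  Nat.beq k (bif allN D.rank (fun i => Nat.beq (c.iterW l n (D.simple i))
    (Cert.ng D (D.simple i))) then 2 else 1)

theorem center_of_chk (hc : Conn D) (l : List (Ix D)) (n : ℕ) {k : ℕ}
    (h : chkCen g.cert D (l.map Fin.val) n k = true) :
    Nat.card (Subgroup.center (W D)) = k ∧ Subgroup.center (W D) ≤ Subgroup.zpowers (wp sW l) := by
  simp only [chkCen, Bool.and_eq_true, Nat.blt_eq, allN_iff, Nat.beq_eq] at h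
  obtain ⟨⟨h0, h1⟩, h2⟩ := h
  have hn : ∀ i : Ix D, ¬ Pos (wp sW l ^ n • sim i) := fun i => by
    rw [← cneg_iff, wp_pow_val]; exact h1 i i.2
  have h3 : ∀ z ∈ Subgroup.center (W D), z = 1 ∨
      z = wp sW l ^ n ∧ ∀ i : Ix D, wp sW l ^ n • sim i = ng (sim i) := fun z hz =>
    (center_sign hc hz).imp_right fun e => by
      have : z = wp sW l ^ n := (eq_w0 (mem_WK_univ _) fun i _ => e i ▸ not_pos_ng_sim i).trans
        (eq_w0 (mem_WK_univ _) fun i _ => hn i).symm
      exact ⟨this, this ▸ e⟩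
  refine ⟨?_, fun z hz => by
    rcases h3 z hz with rfl | ⟨rfl, -⟩
    exacts [one_mem _, Subgroup.npow_mem_zpowers _ _]⟩
  have h4 : (∀ i : Ix D, wp sW l ^ n • sim i = ng (sim i)) ↔ allN D.rank (fun i => Nat.beq
      (g.cert.iterW (l.map Fin.val) n (D.simple i)) (Cert.ng D (D.simple i))) = true := by
    simp only [allN_iff, Nat.beq_eq, Fin.ext_iff, wp_pow_val, ng_val', sim_val]
    exact ⟨fun h i hi => h ⟨i, hi⟩, fun h i => h i i.2⟩
  by_cases h5 : ∀ i : Ix D, wp sW l ^ n • sim i = ng (sim i)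
  · rw [h2, h4.mp h5, cond_true, ← SetLike.coe_sort_coe, Nat.card_coe_set_eq, Set.ncard_eq_two]
    refine ⟨1, wp sW l ^ n, fun e => hn ⟨0, h0⟩ (by rw [← e, one_smul]; exact pos_sim _),
      Set.ext fun z => ⟨fun hz => (h3 z hz).imp_right And.left, ?_⟩⟩
    rintro (rfl | rfl)
    exacts [one_mem _, mem_center_of_neg h5]
  · rw [h2, Bool.eq_false_iff.mpr (mt h4.mpr h5), cond_false, Subgroup.card_eq_one, eq_bot_iff]
    exact fun z hz => (h3 z hz).resolve_right fun e => h5 e.2

theorem map_coxW {M : CoxeterMatrix (Ix D)} {e : W D ≃* M.Group} (he : ∀ i, e (sW i) = M.simple i) :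
    e (coxW D) = ((List.finRange D.rank).map M.simple).prod := by
  rw [coxW, ← MulEquiv.coe_toMonoidHom, map_wp]
  simp only [MulEquiv.coe_toMonoidHom, he]
  rfl

theorem cox_center (hc : Conn D) {M : CoxeterMatrix (Ix D)}
    (hM : ∃ e : W D ≃* M.Group, ∀ i, e (sW i) = M.simple i) (n : ℕ) {k : ℕ}
    (h : chkCen g.cert D ((List.finRange D.rank).map Fin.val) n k = true) :
    Nat.card (Subgroup.center M.Group) = k ∧
      Subgroup.center M.Group ≤ Subgroup.zpowers ((List.finRange D.rank).map M.simple).prod := by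
  obtain ⟨e, he⟩ := hM
  obtain ⟨h1, h2⟩ := center_of_chk hc _ n h
  refine ⟨(Nat.card_congr (Subgroup.centerCongr e).toEquiv).symm.trans h1, fun z hz => ?_⟩
  obtain ⟨m, hm⟩ := h2 ((Subgroup.centerCongr e).symm ⟨z, hz⟩).2
  refine ⟨m, ?_⟩
  rw [← map_coxW he]
  exact (map_zpow e _ m).symm.trans ((congrArg e hm).trans (e.apply_symm_apply z))

theorem cox_center_one (hc : Conn D) {M : CoxeterMatrix (Ix D)}
    (hM : ∃ e : W D ≃* M.Group, ∀ i, e (sW i) = M.simple i) (l : List (Ix D)) (n : ℕ)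
    (h : chkCen g.cert D (l.map Fin.val) n 1 = true) (K : Subgroup M.Group) :
    Nat.card (Subgroup.center M.Group) = 1 ∧ Subgroup.center M.Group ≤ K := by
  obtain ⟨e, -⟩ := hM
  have := (Nat.card_congr (Subgroup.centerCongr e).toEquiv).symm.trans (center_of_chk hc l n h).1
  exact ⟨this, (Subgroup.card_eq_one.mp this).le.trans bot_le⟩

/-- a derivation of all fundamental reflections from the Coxeter element and the roots in `I` -/
noncomputable def chkGen (c : Cert) (D : ChevalleyDatum) (L : List (ℕ × ℕ × ℕ)) :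
    List ℕ → Bool :=
  List.rec (fun I => allN D.rank fun i => I.contains (D.simple i))
    (fun e _ ih I => Nat.blt e.1 D.nroots && I.contains e.2.1 && I.contains e.2.2 &&
      (Nat.beq e.1 (c.appW (List.range D.rank) e.2.2) || allN D.rank fun i =>
        ieq (c.co D e.1 i) (c.co D e.2.2 i - c.cpr D e.2.1 e.2.2 * c.co D e.2.1 i)) &&
      ih (e.1 :: I)) L

theorem top_of_chkGen {K : Subgroup (W D)} (hK : coxW D ∈ K) (L : List (ℕ × ℕ × ℕ)) (I : List ℕ)
    (hI : ∀ a ∈ I, ∃ r : Rt D, (r : ℕ) = a ∧ rW r ∈ K) (h : chkGen g.cert D L I = true) :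
    K = ⊤ := by
  induction L generalizing I with
  | nil =>
    simp only [chkGen, allN_iff, List.contains_iff_mem] at h
    rw [eq_top_iff, ← WK_univ, WK, Subgroup.closure_le]
    rintro _ ⟨i, -, rfl⟩
    obtain ⟨r, e, hr⟩ := hI _ (h i i.2)
    rwa [show r = sim i from Fin.ext e, rW_sim] at hr
  | cons e L ih =>
    rw [chkGen] at h
    simp only [Bool.and_eq_true, Nat.blt_eq, List.contains_iff_mem, Bool.or_eq_true, Nat.beq_eq,
      allN_iff, ieq_iff] at h
    obtain ⟨⟨⟨⟨h1, h2⟩, h3⟩, h4⟩, h5⟩ := h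
    refine ih _ (List.forall_mem_cons.mpr ⟨⟨⟨_, h1⟩, rfl, ?_⟩, hI⟩) h5
    obtain ⟨a, ea, ha⟩ := hI _ h2
    obtain ⟨b, eb, hb⟩ := hI _ h3
    have key : ∀ w ∈ K, w • b = ⟨_, h1⟩ → rW ⟨_, h1⟩ ∈ K := fun w hw e => by
      rw [← e, rW_smul]; exact mul_mem (mul_mem hw hb) (inv_mem hw)
    rcases h4 with h4 | h4
    · exact key _ hK (Fin.ext (by rw [coxW_val, eb, ← h4]))
    · refine key _ ha (co_inj (funext fun i => ?_))
      rw [co_rW, ← cpr_eq]
      rw [← ea, ← eb] at h4
      exact (h4 i i.2).symm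

theorem cox_gen {M : CoxeterMatrix (Ix D)}
    (hM : ∃ e : W D ≃* M.Group, ∀ i, e (sW i) = M.simple i) (I : List (Ix D)) (hI : I.Nodup)
    (L : List (ℕ × ℕ × ℕ)) (h : chkGen g.cert D L (I.map fun i : Ix D => D.simple i) = true) :
    ∃ T : Finset M.Group, T.card = I.length ∧
      (∀ t ∈ T, ∃ (g : M.Group) (i : Fin D.rank), t = g * M.simple i * g⁻¹) ∧
      Subgroup.closure (({((List.finRange D.rank).map M.simple).prod} : Set M.Group) ∪ ↑T) = ⊤ := by
  classical
  obtain ⟨e, he⟩ := hM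
  refine ⟨(I.map M.simple).toFinset, ?_, fun t ht => ?_, ?_⟩
  · rw [List.toFinset_card_of_nodup (hI.map fun i j h => ?_), List.length_map]
    rw [← he, ← he, e.apply_eq_iff_eq, ← rW_sim] at h
    exact (eq_or_of_rW h).elim (fun h => sim_injective h)
      fun h => (not_pos_ng_sim j (h ▸ pos_sim i)).elim
  · obtain ⟨i, -, rfl⟩ := List.mem_map.mp (List.mem_toFinset.mp ht)
    exact ⟨1, i, by simp⟩
  · refine (Subgroup.comap_injective (f := e.toMonoidHom) e.surjective) ?_
    refine top_of_chkGen (Subgroup.subset_closure (.inl (map_coxW he))) L _ (fun a ha => ?_) h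
    obtain ⟨i, hi, rfl⟩ := List.mem_map.mp ha
    refine ⟨sim i, rfl, Subgroup.subset_closure (.inr ?_)⟩
    rw [rW_sim, MulEquiv.coe_toMonoidHom, he]
    exact List.mem_toFinset.mpr (List.mem_map_of_mem hi)

theorem cox_gen_two (M : CoxeterMatrix (Fin 2)) : ∃ T : Finset M.Group, T.card = 1 ∧
      (∀ t ∈ T, ∃ (g : M.Group) (i : Fin 2), t = g * M.simple i * g⁻¹) ∧
      Subgroup.closure (({((List.finRange 2).map M.simple).prod} : Set M.Group) ∪ ↑T) = ⊤ := by
  refine ⟨{M.simple 0}, rfl, fun t ht => ⟨1, 0, by simpa using ht⟩, ?_⟩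
  rw [eq_top_iff, ← M.toCoxeterSystem.subgroup_closure_range_simple, Subgroup.closure_le,
    M.toCoxeterSystem_simple]
  have h0 : M.simple 0 ∈ Subgroup.closure
      (({((List.finRange 2).map M.simple).prod} : Set M.Group) ∪ ({M.simple 0} : Finset _)) :=
    Subgroup.subset_closure (.inr (by simp))
  rintro _ ⟨i, rfl⟩
  fin_cases i
  · exact h0
  · refine (mul_mem_cancel_left h0).mp (Subgroup.subset_closure (.inl ?_))
    simp [List.finRange_succ]

end Cfsg.Agent.H23
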